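import Cfsg.Agent.PrimeTI.Local
import Cfsg.Agent.Chars.Induced.Basic
import Cfsg.Agent.Chars.Induced.Mult
import Cfsg.Agent.Chars.Induced.Det
import Cfsg.Agent.Chars.Basic
import Cfsg.Agent.Chars.Brauer.Defect
import Cfsg.Agent.Chars.DetRegular.Basic

/-!
# The exceptional characters of a cyclic TI complement

`Phi l = Ind (1 - l)` for the homomorphisms `l` of `E`.  If `χ` is the only irreducible character of
degree `p`, then `χ` is `1` on the nontrivial elements of `E`, and `Phi l = 1 + χ - X` with `X`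
irreducible of degree `p + 1` unless `l ^ r = l`.
-/

set_option autoImplicit false

noncomputable section

namespace CfsgLib.PrimeTI.Setting.Flip

open Cfsg CfsgLib Finset
open scoped ComplexConjugate

universe u

variable {G : Type u} [Group G] [Fintype G] {p e : ℕ} [hp : Fact p.Prime] {u₀ s t : G} {r : ℕ}

local instance instFintypeE (s : G) : Fintype (Subgroup.zpowers s) := Fintype.ofFinite _

/-- The function `1 - l`. -/
def phiE (l : Subgroup.zpowers s →* ℂˣ) : Subgroup.zpowers s → ℂ := fun x => 1 - (l x : ℂ)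

/-- The induced function. -/
def Phi (l : Subgroup.zpowers s →* ℂˣ) : G → ℂ := indFun (Subgroup.zpowers s) (phiE l)

theorem Phi_classFun (l : Subgroup.zpowers s →* ℂˣ) : IsClassFunction G (Phi l) :=
  Chars.Induced.indFun_isClassFunction _ _

theorem Phi_one (l : Subgroup.zpowers s →* ℂˣ) : Phi l (1 : G) = 0 := by
  rw [Phi, Chars.Induced.indFun_one_apply, phiE, map_one, Units.val_one, sub_self, mul_zero]

/-- Off the conjugates of `E` the induced function vanishes. -/
theorem Phi_eq_zero (l : Subgroup.zpowers s →* ℂˣ) {g : G}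
    (hg : ∀ x : G, x⁻¹ * g * x ∉ Subgroup.zpowers s) : Phi l g = 0 :=
  Chars.Induced.indFun_eq_zero_of_forall _ hg

theorem Phi_singular (F : Flip p e u₀ s t r) (l : Subgroup.zpowers s →* ℂˣ) {g : G}
    (hg : p ∣ orderOf g) : Phi l g = 0 := by
  refine Phi_eq_zero l fun x hx => F.not_dvd (Dvd.dvd.mul_left ?_ 2)
  rw [← F.hs, ← Nat.card_zpowers]
  refine hg.trans ?_
  rw [show orderOf g = orderOf (x⁻¹ * g * x) from
    orderOf_injective (MulAut.conj x⁻¹).toMonoidHom (MulAut.conj x⁻¹).injective g |>.symm.trans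
      (by simp [mul_assoc])]
  exact Subgroup.orderOf_dvd_natCard _ hx

theorem Phi_mem (F : Flip p e u₀ s t r) (l : Subgroup.zpowers s →* ℂˣ) (x : Subgroup.zpowers s) :
    Phi l (x : G) = 2 - (l x : ℂ) - ((l ^ r) x : ℂ) := by
  classical
  rcases eq_or_ne x 1 with rfl | hx1
  · rw [OneMemClass.coe_one, Phi_one, map_one, map_one]
    norm_num
  have hx1' : (x : G) ≠ 1 := fun h => hx1 (Subtype.ext h)
  set N := Subgroup.normalizer (Subgroup.zpowers s : Set G)
  have hterm : ∀ g : G, extendByZero (Subgroup.zpowers s) (phiE l) (g⁻¹ * (x : G) * g) =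
      (if g ∈ Subgroup.zpowers s then (1 - (l x : ℂ)) else 0) +
        (if g ∈ N ∧ g ∉ Subgroup.zpowers s then (1 - ((l ^ r) x : ℂ)) else 0) := by
    intro g
    by_cases hgE : g ∈ Subgroup.zpowers s
    · rw [if_pos hgE, if_neg (fun h => h.2 hgE), add_zero, mul_assoc,
        E_comm x.2 hgE, inv_mul_cancel_left, Chars.Induced.extendByZero_coe]
      rfl
    rw [if_neg hgE, zero_add]
    by_cases hgN : g ∈ N
    · rw [if_pos ⟨hgN, hgE⟩]
      have h1 : g⁻¹ * (x : G) * g = ((x ^ r : Subgroup.zpowers s) : G) := by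
        have h2 := F.conj_outside (inv_mem hgN) (fun h => hgE (inv_mem_iff.1 h)) x.2
        rw [inv_inv] at h2
        rw [h2, SubgroupClass.coe_pow]
      rw [h1, Chars.Induced.extendByZero_coe, phiE, map_pow, MonoidHom.pow_apply]
    · rw [if_neg (fun h => hgN h.1), Chars.Induced.extendByZero_notMem]
      intro hmem
      refine hgN (inv_mem_iff.1 (F.hTI g⁻¹ x x.2 hx1' ?_))
      rwa [inv_inv]
  rw [Phi, indFun]
  simp only [hterm, Finset.sum_add_distrib, ← Finset.sum_filter, Finset.sum_const, nsmul_eq_mul]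
  have hcardE : (Finset.univ.filter fun g : G => g ∈ Subgroup.zpowers s).card = e := by
    rw [← Fintype.card_subtype, ← Nat.card_eq_fintype_card]
    exact (Nat.card_zpowers s).trans F.hs
  have hcardN : (Finset.univ.filter fun g : G => g ∈ N ∧ g ∉ Subgroup.zpowers s).card = e := by
    have h1 : (Finset.univ.filter fun g : G => g ∈ N ∧ g ∉ Subgroup.zpowers s) =
        (Finset.univ.filter fun g : G => g ∈ N) \
          (Finset.univ.filter fun g : G => g ∈ Subgroup.zpowers s) := by
      ext g; simp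
    have hcardN' : (Finset.univ.filter fun g : G => g ∈ N).card = 2 * e := by
      rw [← Fintype.card_subtype, ← Nat.card_eq_fintype_card]
      exact F.hNE
    have hsub : (Finset.univ.filter fun g : G => g ∈ Subgroup.zpowers s) ⊆
        (Finset.univ.filter fun g : G => g ∈ N) :=
      Finset.monotone_filter_right _ fun g _ hg => Setting.le_normalizer_E hg
    rw [h1, Finset.card_sdiff_of_subset hsub, hcardE, hcardN']
    omega
  rw [hcardE, hcardN, Nat.card_zpowers, F.hs]
  have he : (e : ℂ) ≠ 0 := Nat.cast_ne_zero.2 (by have := F.he2; omega)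
  field_simp
  ring

theorem Phi_pow {k : ℕ} (hk : k.Coprime (Nat.card G)) (l : Subgroup.zpowers s →* ℂˣ) (g : G) :
    Phi l (g ^ k) = Phi (l ^ k) g := by
  simp only [Phi, indFun]
  congr 1
  refine Finset.sum_congr rfl fun x _ => ?_
  have h : x⁻¹ * g ^ k * x = (x⁻¹ * g * x) ^ k := by
    have := (conj_pow (i := k) (a := x⁻¹) (b := g)).symm
    rwa [inv_inv] at this
  rw [h]
  by_cases hm : x⁻¹ * g * x ∈ Subgroup.zpowers s
  · rw [Chars.Induced.extendByZero_mem _ hm, Chars.Induced.extendByZero_mem _ (pow_mem hm k)]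
    show (1 : ℂ) - _ = 1 - _
    rw [MonoidHom.pow_apply, ← map_pow]
    rfl
  · rw [Chars.Induced.extendByZero_notMem _ hm, Chars.Induced.extendByZero_notMem]
    intro hk'
    obtain ⟨m, hm'⟩ := exists_pow_eq_self_of_coprime (x := x⁻¹ * g * x) (n := k)
      (Nat.Coprime.coprime_dvd_right (orderOf_dvd_natCard _) hk)
    exact hm (hm' ▸ pow_mem hk' m)

theorem sum_hom_mul_conj (F : Flip p e u₀ s t r) (l m : Subgroup.zpowers s →* ℂˣ)
    [Decidable (l = m)] :
    ∑ x : Subgroup.zpowers s, (l x : ℂ) * conj (m x : ℂ) = if l = m then (e : ℂ) else 0 := by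
  classical
  have h := Chars.classInner_irr (Chars.linChar l) (Chars.linChar m)
  simp only [classInner, Chars.linChar_apply, Chars.linChar_injective.eq_iff, Nat.card_zpowers,
    F.hs] at h
  rw [inv_mul_eq_iff_eq_mul₀ (Nat.cast_ne_zero.2 (by have := F.he2; omega))] at h
  rw [h]
  split_ifs <;> simp

theorem sum_hom (F : Flip p e u₀ s t r) {l : Subgroup.zpowers s →* ℂˣ} (hl : l ≠ 1) :
    ∑ x : Subgroup.zpowers s, (l x : ℂ) = 0 := by
  classical
  simpa [hl] using F.sum_hom_mul_conj l 1

theorem classInner_Phi (F : Flip p e u₀ s t r) (l : Subgroup.zpowers s →* ℂˣ) {f : G → ℂ}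
    (hf : IsClassFunction G f) :
    classInner (Phi l) f = (e : ℂ)⁻¹ * ∑ x : Subgroup.zpowers s, (1 - (l x : ℂ)) * conj (f x) := by
  rw [Phi, Chars.Induced.classInner_indFun _ _ hf, classInner, Nat.card_zpowers, F.hs]
  rfl

theorem pow_r_ne_one (F : Flip p e u₀ s t r) {l : Subgroup.zpowers s →* ℂˣ} (hl : l ≠ 1) :
    l ^ r ≠ 1 := by
  intro h
  refine hl (MonoidHom.ext fun x => ?_)
  have h1 : (l ^ r) ^ r = l := by
    refine MonoidHom.ext fun y => ?_
    simp only [MonoidHom.pow_apply, ← pow_mul, ← map_pow]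
    exact congrArg l (Subtype.ext (by rw [SubgroupClass.coe_pow, F.pow_sq y.2]))
  rw [← h1, h]
  simp

theorem inner_Phi_Phi (F : Flip p e u₀ s t r) {l m : Subgroup.zpowers s →* ℂˣ} (hl : l ≠ 1)
    (hm : m ≠ 1) [Decidable (l = m)] [Decidable (l = m ^ r)] :
    classInner (Phi l) (Phi m) = 2 + (if l = m then 1 else 0) + (if l = m ^ r then 1 else 0) := by
  rw [F.classInner_Phi l (Phi_classFun m)]
  have e1 : ∀ x : Subgroup.zpowers s, (1 - (l x : ℂ)) * conj (Phi m (x : G)) =
      2 - conj (m x : ℂ) - conj ((m ^ r) x : ℂ) - 2 * (l x : ℂ) + (l x : ℂ) * conj (m x : ℂ) +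
        (l x : ℂ) * conj ((m ^ r) x : ℂ) := by
    intro x
    rw [F.Phi_mem, map_sub, map_sub, map_ofNat]
    ring
  simp only [e1, Finset.sum_add_distrib, Finset.sum_sub_distrib, ← map_sum, ← Finset.mul_sum,
    F.sum_hom hl, F.sum_hom hm, F.sum_hom (F.pow_r_ne_one hm), F.sum_hom_mul_conj, map_zero,
    mul_zero, sub_zero, Finset.sum_const, Finset.card_univ, nsmul_eq_mul]
  rw [← Nat.card_eq_fintype_card, Nat.card_zpowers, F.hs]
  have he : (e : ℂ) ≠ 0 := Nat.cast_ne_zero.2 (by have := F.he2; omega)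
  split_ifs <;> field_simp <;> ring

/-- The coefficient of an irreducible character in the induced function. -/
def coef (l : Subgroup.zpowers s →* ℂˣ) (η : IrrCharacter G) : ℂ :=
  classInner (Phi l) (η : G → ℂ)

theorem coef_eq_sub (F : Flip p e u₀ s t r) (l : Subgroup.zpowers s →* ℂˣ) (η : IrrCharacter G) :
    coef l η = classInner (Chars.linChar (1 : Subgroup.zpowers s →* ℂˣ) : Subgroup.zpowers s → ℂ)
        (fun x => (η : G → ℂ) x) -
      classInner (Chars.linChar l : Subgroup.zpowers s → ℂ) (fun x => (η : G → ℂ) x) := by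
  rw [coef, F.classInner_Phi l (Chars.isClassFunction_coe η), classInner, classInner, ← mul_sub,
    ← Finset.sum_sub_distrib, Nat.card_zpowers, F.hs]
  congr 1
  refine Finset.sum_congr rfl fun x _ => ?_
  simp only [Chars.linChar_apply, MonoidHom.one_apply, Units.val_one]
  ring

theorem exists_coef_int (F : Flip p e u₀ s t r) (l : Subgroup.zpowers s →* ℂˣ)
    (η : IrrCharacter G) : ∃ c : ℤ, coef l η = c := by
  have hc := Chars.isCharacter_restrict (Chars.isCharacter_coe η) (Subgroup.zpowers s)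
  rw [F.coef_eq_sub, Chars.Induced.classInner_irr_left_eq_mult hc,
    Chars.Induced.classInner_irr_left_eq_mult hc]
  exact ⟨(Chars.Induced.mult (fun x : Subgroup.zpowers s => (η : G → ℂ) x)
      (Chars.linChar (1 : Subgroup.zpowers s →* ℂˣ)) : ℤ) -
    Chars.Induced.mult (fun x : Subgroup.zpowers s => (η : G → ℂ) x) (Chars.linChar l), by simp⟩

theorem coef_one (F : Flip p e u₀ s t r) {l : Subgroup.zpowers s →* ℂˣ} (hl : l ≠ 1) :
    coef l (Chars.oneChar G) = 1 := by
  rw [coef, F.classInner_Phi l (Chars.isClassFunction_coe _)]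
  simp only [Chars.oneChar_apply, map_one, mul_one, Finset.sum_sub_distrib, Finset.sum_const,
    Finset.card_univ, nsmul_one, F.sum_hom hl, sub_zero]
  rw [← Nat.card_eq_fintype_card, Nat.card_zpowers, F.hs,
    inv_mul_cancel₀ (Nat.cast_ne_zero.2 (by have := F.he2; omega))]

/-- The values on `E` from the coefficients. -/
theorem apply_eq_neg_sum (F : Flip p e u₀ s t r) [Fintype (Subgroup.zpowers s →* ℂˣ)]
    (η : IrrCharacter G) {x : Subgroup.zpowers s} (hx : x ≠ 1) :
    (η : G → ℂ) x = - ∑ l : Subgroup.zpowers s →* ℂˣ, coef l η * (l x : ℂ) := by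
  classical
  haveI : IsMulCommutative (Subgroup.zpowers s) := IsCyclic.isMulCommutative
  have hbij : Function.Bijective (Chars.linChar (G := Subgroup.zpowers s)) :=
    ⟨Chars.linChar_injective, fun φ =>
      Chars.exists_linChar_eq φ (Chars.map_one_eq_one_of_isMulCommutative φ)⟩
  set f : Subgroup.zpowers s → ℂ := fun y => (η : G → ℂ) y with hf
  have hc : IsCharacter _ f := Chars.isCharacter_restrict (Chars.isCharacter_coe η) _
  have h1 := Chars.eq_sum_classInner_mul (Chars.isClassFunction_of_isCharacter hc) x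
  have hco : ∀ φ : IrrCharacter (Subgroup.zpowers s),
      classInner f (φ : Subgroup.zpowers s → ℂ) = classInner (φ : Subgroup.zpowers s → ℂ) f :=
    fun φ => by rw [Chars.Induced.classInner_eq_mult hc, Chars.Induced.classInner_irr_left_eq_mult hc]
  have h2 : ∑ φ : IrrCharacter (Subgroup.zpowers s), (φ : Subgroup.zpowers s → ℂ) x = 0 := by
    have h := Chars.sum_irr_map_one_mul x
    rw [if_neg hx] at h
    simpa [Chars.map_one_eq_one_of_isMulCommutative] using h
  have hb : ∀ g : IrrCharacter (Subgroup.zpowers s) → ℂ,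
      ∑ l, g (Chars.linChar l) = ∑ φ, g φ := fun g =>
    hbij.sum_comp g
  rw [← hb] at h1 h2
  simp only [hco, Chars.linChar_apply] at h1 h2
  show f x = _
  simp only [F.coef_eq_sub, sub_mul, Finset.sum_sub_distrib, ← Finset.mul_sum]
  rw [h2, mul_zero, zero_sub, neg_neg]
  exact h1

/-- The decomposition of the square norm. -/
theorem sum_coef_sq (F : Flip p e u₀ s t r) {l : Subgroup.zpowers s →* ℂˣ} (hl : l ≠ 1)
    (c : IrrCharacter G → ℤ) (hc : ∀ η, coef l η = c η) [Decidable (l = l ^ r)] :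
    ∑ η, c η ^ 2 = if l = l ^ r then 4 else 3 := by
  classical
  refine Int.cast_injective (α := ℂ) ?_
  have h := Chars.classInner_eq_sum (Phi_classFun l) (Phi l)
  rw [F.inner_Phi_Phi hl hl, if_pos rfl] at h
  simp only [show ∀ η : IrrCharacter G, classInner (Phi l) (η : G → ℂ) = c η from hc, map_intCast] at h
  push_cast
  simp only [pow_two, ← h]
  split_ifs <;> norm_num

section Chi

variable {χ : IrrCharacter G}

/-- The unique character of degree `p`. -/
structure IsChi (p : ℕ) (χ : IrrCharacter G) : Prop where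
  deg : charDegree (χ : G → ℂ) = p
  uniq : ∀ η : IrrCharacter G, charDegree (η : G → ℂ) = p → η = χ

theorem IsChi.map_one (hχ : IsChi p χ) : (χ : G → ℂ) 1 = p := by
  rw [← Chars.coe_charDegree, hχ.deg]

theorem IsChi.powIrr_eq (hχ : IsChi p χ) {k : ℕ} (hk : k.Coprime (Nat.card G)) :
    Blocks.Orth.powIrr hk χ = χ := by
  refine hχ.uniq _ (Chars.charDegree_eq_of_map_one ?_)
  rw [Blocks.Orth.powIrr_apply, one_pow, hχ.map_one]

theorem chi_singular (F : Flip p e u₀ s t r) (hχ : IsChi p χ) {g : G} (hg : p ∣ orderOf g) :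
    (χ : G → ℂ) g = 0 := by
  refine Chars.Brauer.eq_zero_of_defect_zero hp.out χ (a := 1)
    (m := (Subgroup.zpowers u₀).index) ?_ F.hidx (by rw [pow_one, hχ.deg]) hg
  rw [pow_one, ← F.hu, ← Nat.card_zpowers, Subgroup.card_mul_index]

theorem chi_apply_E (F : Flip p e u₀ s t r) (hχ : IsChi p χ) (x : Subgroup.zpowers s) (hx : x ≠ 1) :
    (χ : G → ℂ) x = 1 := by
  classical
  obtain ⟨n, ρ, -, hρ⟩ := χ.2
  have hval : ∀ g, LinearMap.trace ℂ _ (ρ g) = (χ : G → ℂ) g := fun g => congrFun hρ g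
  have hn : n = p := by
    have h := hval 1
    rw [map_one ρ, LinearMap.trace_one, Module.finrank_fin_fun, hχ.map_one] at h
    exact_mod_cast h
  set P := Subgroup.zpowers u₀ with hP
  haveI : Fintype P := Fintype.ofFinite _
  have hpC : (p : ℂ) ≠ 0 := Nat.cast_ne_zero.2 hp.out.ne_zero
  have hPcard : Fintype.card P = p := by
    rw [← Nat.card_eq_fintype_card, Nat.card_zpowers, F.hu]
  set E : Module.End ℂ (Fin n → ℂ) := (p : ℂ)⁻¹ • ∑ v : P, ρ (v : G) with hE
  have hvE : ∀ v : P, ρ (v : G) * E = E := fun v => by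
    rw [hE, mul_smul_comm, Finset.mul_sum]
    congr 1
    exact Fintype.sum_equiv (Equiv.mulLeft v) _ _ fun w => (map_mul ρ _ _).symm
  have hEE : E * E = E := by
    conv_lhs => arg 1; rw [hE]
    rw [smul_mul_assoc, Finset.sum_mul, Finset.sum_congr rfl fun v _ => hvE v, Finset.sum_const,
      Finset.card_univ, hPcard, ← Nat.cast_smul_eq_nsmul ℂ, smul_smul, inv_mul_cancel₀ hpC, one_smul]
  have hcomm : ∀ y ∈ Subgroup.zpowers s, ρ y * E = E * ρ y := by
    intro y hy
    have hyN : y ∈ Subgroup.normalizer (P : Set G) := Subgroup.zpowers_le.2 F.hsN hy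
    rw [hE, mul_smul_comm, smul_mul_assoc, Finset.mul_sum, Finset.sum_mul]
    congr 1
    refine Finset.sum_bij (fun v _ => (⟨y * (v : G) * y⁻¹,
      (Subgroup.mem_set_normalizer_iff.1 hyN _).1 v.2⟩ : P)) (fun _ _ => Finset.mem_univ _)
      (fun a _ b _ h => Subtype.ext (by simpa using congrArg Subtype.val h)) (fun v _ => ?_) ?_
    · exact ⟨⟨y⁻¹ * (v : G) * y, (Subgroup.mem_set_normalizer_iff''.1 hyN _).1 v.2⟩,
        Finset.mem_univ _, Subtype.ext (by simp [mul_assoc])⟩
    · intro v _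
      rw [← map_mul, ← map_mul]
      simp [mul_assoc]
  -- traces against the projection
  have htrE : ∀ g : G, LinearMap.trace ℂ _ (ρ g * E) =
      (p : ℂ)⁻¹ * ∑ v : P, (χ : G → ℂ) (g * v) := fun g => by
    rw [hE, mul_smul_comm, Finset.mul_sum, map_smul, map_sum, smul_eq_mul]
    exact congrArg _ (Finset.sum_congr rfl fun v _ => by rw [← map_mul, hval])
  have htr1 : LinearMap.trace ℂ _ E = 1 := by
    have h := htrE 1
    rw [map_one ρ, one_mul] at h
    rw [h, Finset.sum_eq_single (1 : P) (fun v _ hv => ?_) (fun h => absurd (Finset.mem_univ _) h),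
      OneMemClass.coe_one, one_mul, hχ.map_one, inv_mul_cancel₀ hpC]
    rw [one_mul]
    refine F.chi_singular hχ ?_
    have h2 : orderOf (v : G) ∣ p :=
      F.hu ▸ Nat.card_zpowers u₀ ▸ Subgroup.orderOf_dvd_natCard _ v.2
    rcases (Nat.dvd_prime hp.out).1 h2 with h3 | h3
    · exact absurd (Subtype.ext (orderOf_eq_one_iff.1 h3)) hv
    · rw [h3]
  have htrx : ∀ y ∈ Subgroup.zpowers s, y ≠ 1 →
      LinearMap.trace ℂ _ (ρ y * E) = (χ : G → ℂ) y := by
    intro y hy hy1
    rw [htrE, Finset.sum_congr rfl fun (v : P) _ => show (χ : G → ℂ) (y * v) = (χ : G → ℂ) y by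
      obtain ⟨w, -, hw⟩ := F.exists_conj hy hy1 v.2
      rw [← hw, Chars.isClassFunction_coe χ], Finset.sum_const, Finset.card_univ, hPcard,
      nsmul_eq_mul, ← mul_assoc, inv_mul_cancel₀ hpC, one_mul]
  -- the projection has rank one
  have hrank : Module.finrank ℂ (LinearMap.range E) = 1 := by
    rw [DetRegular.trace_idem hEE] at htr1
    exact_mod_cast htr1
  obtain ⟨w, -, hspan⟩ := finrank_eq_one_iff'.1 hrank
  have hfix : E (w : Fin n → ℂ) = w := (DetRegular.isProj_of_idem hEE).map_id _ w.2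
  have hscal : ∀ A : Module.End ℂ (Fin n → ℂ), A * E = E * A →
      A * E = LinearMap.trace ℂ _ (A * E) • E := by
    intro A hA
    obtain ⟨a, ha⟩ := hspan ⟨A w, ⟨A w, by
      have h := LinearMap.congr_fun hA w
      simp only [Module.End.mul_apply, hfix] at h
      exact h.symm⟩⟩
    have ha' : A (w : Fin n → ℂ) = a • (w : Fin n → ℂ) := (congrArg Subtype.val ha).symm
    have h1 : A * E = a • E := by
      refine LinearMap.ext fun v => ?_
      obtain ⟨c, hc⟩ := hspan ⟨E v, ⟨v, rfl⟩⟩
      have hc' : E v = c • (w : Fin n → ℂ) := (congrArg Subtype.val hc).symm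
      show A (E v) = a • E v
      rw [hc', map_smul, ha', smul_comm]
    conv_lhs => rw [h1]
    rw [h1, map_smul, htr1, smul_eq_mul, mul_one]
  set μ : G → ℂ := fun y => LinearMap.trace ℂ _ (ρ y * E)
  have hμmul : ∀ y ∈ Subgroup.zpowers s, ∀ z ∈ Subgroup.zpowers s, μ (y * z) = μ y * μ z := by
    intro y hy z hz
    show LinearMap.trace ℂ _ (ρ (y * z) * E) = _
    rw [map_mul ρ, mul_assoc, hscal _ (hcomm z hz), mul_smul_comm, map_smul, smul_eq_mul, mul_comm]
  have hμ1 : μ 1 = 1 := by show LinearMap.trace ℂ _ (ρ 1 * E) = 1; rw [map_one ρ, one_mul, htr1]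
  have hμpow : ∀ k : ℕ, μ (s ^ k) = μ s ^ k := by
    intro k
    induction k with
    | zero => simp [hμ1]
    | succ k ih =>
      rw [pow_succ, hμmul _ (pow_mem (Subgroup.mem_zpowers s) k) _ (Subgroup.mem_zpowers s), ih,
        pow_succ]
  set a := μ s with ha
  have hae : a ^ e = 1 := by rw [ha, ← hμpow, ← F.hs, pow_orderOf_eq_one, hμ1]
  have ha0 : a ≠ 0 := fun h => by
    rw [h, zero_pow (by have := F.he2; omega)] at hae
    exact zero_ne_one hae
  have hs1 : s ≠ 1 := fun h => by
    have h2 := F.hs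
    rw [h, orderOf_one] at h2
    have := F.he2
    omega
  have har : a ^ r = a := by
    rw [ha, ← hμpow]
    have hsr : s ^ r ∈ Subgroup.zpowers s := pow_mem (Subgroup.mem_zpowers s) r
    have hsr1 : s ^ r ≠ 1 := fun h => hs1 (by
      have h2 := F.pow_sq (Subgroup.mem_zpowers s)
      rw [← h2, pow_mul, h, one_pow])
    show LinearMap.trace ℂ _ (ρ (s ^ r) * E) = LinearMap.trace ℂ _ (ρ s * E)
    rw [htrx _ hsr hsr1, htrx _ (Subgroup.mem_zpowers s) hs1, ← F.hts, Chars.isClassFunction_coe χ]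
  have ha2 : a ^ 2 = 1 := by
    have h := F.sq_eq_one (a := Units.mk0 a ha0) (Units.ext (by simpa using hae))
      (Units.ext (by simpa using har))
    simpa using congrArg Units.val h
  -- the determinant
  set A := ρ s with hA
  have hAE : A * E = E * A := hcomm s (Subgroup.mem_zpowers s)
  have hW : ∀ v ∈ LinearMap.ker E, A v ∈ LinearMap.ker E := fun v hv => by
    rw [LinearMap.mem_ker] at hv ⊢
    rw [← Module.End.mul_apply, ← hAE, Module.End.mul_apply, hv, map_zero]
  set AW := A.restrict hW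
  have hcompl := (DetRegular.isProj_of_idem hEE).isCompl
  let eq := Submodule.prodEquivOfIsCompl _ _ hcompl
  have hAR : ∀ (i : ℕ) (v : Fin n → ℂ), v ∈ LinearMap.range E → (A ^ i) v = a ^ i • v := by
    intro i v hv
    have hv' : E v = v := (DetRegular.isProj_of_idem hEE).map_id _ hv
    conv_lhs => rw [← hv']
    rw [← Module.End.mul_apply, hA, ← map_pow, hscal _ (hcomm _ (pow_mem (Subgroup.mem_zpowers s) i)),
      show LinearMap.trace ℂ _ (ρ (s ^ i) * E) = a ^ i from hμpow i, LinearMap.smul_apply, hv']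
  have hpowW : ∀ (i : ℕ) (v : LinearMap.ker E), ((AW ^ i) v : Fin n → ℂ) = (A ^ i) v := by
    intro i
    induction i with
    | zero => intro v; rfl
    | succ i ih => intro v; rw [pow_succ, pow_succ, Module.End.mul_apply, Module.End.mul_apply, ih]; rfl
  have hconj : ∀ i : ℕ, A ^ i = eq.conj (LinearMap.prodMap (a ^ i • LinearMap.id) (AW ^ i)) := by
    intro i
    refine LinearMap.ext fun v => ?_
    obtain ⟨⟨v1, v2⟩, rfl⟩ := eq.surjective v
    simp [eq, LinearEquiv.conj_apply, Submodule.coe_prodEquivOfIsCompl', hpowW, hAR i v1 v1.2]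
  have hAe : AW ^ e = 1 := by
    refine LinearMap.ext fun v => Subtype.ext ?_
    rw [hpowW, hA, ← map_pow, ← F.hs, pow_orderOf_eq_one, map_one]
    rfl
  have hfinW : Module.finrank ℂ (LinearMap.ker E) = (p - 1) / e * e := by
    have h := LinearMap.finrank_range_add_finrank_ker E
    rw [hrank, Module.finrank_fin_fun] at h
    rw [Nat.div_mul_cancel F.hediv]
    omega
  have htrW : ∀ i, 0 < i → i < e → LinearMap.trace ℂ _ (AW ^ i) = 0 := by
    intro i hi0 hie
    have hne : s ^ i ≠ 1 := pow_ne_one_of_lt_orderOf hi0.ne' (F.hs.symm ▸ hie)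
    have h := congrArg (LinearMap.trace ℂ _) (hconj i)
    rw [LinearMap.trace_conj', LinearMap.trace_prodMap', map_smul, LinearMap.trace_id, hrank,
      Nat.cast_one, smul_eq_mul, mul_one, hA, ← map_pow, hval,
      ← htrx _ (pow_mem (Subgroup.mem_zpowers s) i) hne,
      show LinearMap.trace ℂ _ (ρ (s ^ i) * E) = a ^ i from hμpow i] at h
    linear_combination -h
  have hdetW : LinearMap.det AW = 1 := by
    rw [DetRegular.det_eq_neg_one_pow (by have := F.he2; omega) AW hAe htrW hfinW]
    refine Even.neg_one_pow (Even.mul_left ?_ _)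
    obtain ⟨k, hk⟩ := F.hem
    rw [hk, show 2 * e * k = 2 * k * e by ring, Nat.mul_div_cancel _ (by have := F.he2; omega)]
    exact even_two_mul k
  have hdet1 : LinearMap.det A = 1 := by
    have hker : (Chars.Induced.repDet ρ).ker = ⊤ :=
      top_le_iff.1 (F.perfect ▸ Abelianization.commutator_subset_ker _)
    have h := congrArg Units.val (MonoidHom.mem_ker.1 (hker ▸ Subgroup.mem_top s))
    rwa [Chars.Induced.repDet_apply, Units.val_one] at h
  have hdetA : LinearMap.det A = a := by
    have h := hconj 1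
    rw [pow_one, pow_one, pow_one, LinearEquiv.conj_apply, LinearMap.comp_assoc] at h
    rw [h, LinearMap.det_conj, LinearMap.det_prodMap, LinearMap.det_smul, LinearMap.det_id,
      hdetW, hrank, pow_one, mul_one, mul_one]
  have hx1' : (x : G) ≠ 1 := fun h => hx (Subtype.ext h)
  obtain ⟨k, -, hk⟩ := F.mem_E_iff.1 x.2
  rw [← htrx _ x.2 hx1', ← hk]
  show μ (s ^ k) = 1
  rw [hμpow, ← hdetA, hdet1, one_pow]

theorem coef_chi (F : Flip p e u₀ s t r) (hχ : IsChi p χ) {l : Subgroup.zpowers s →* ℂˣ}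
    (hl : l ≠ 1) : coef l χ = 1 := by
  classical
  rw [coef, F.classInner_Phi l (Chars.isClassFunction_coe _),
    Finset.sum_congr rfl fun (x : Subgroup.zpowers s) _ =>
      show (1 - (l x : ℂ)) * conj ((χ : G → ℂ) x) = 1 - (l x : ℂ) by
        rcases eq_or_ne x 1 with rfl | hx
        · simp
        · rw [F.chi_apply_E hχ x hx, _root_.map_one, mul_one],
    Finset.sum_sub_distrib, F.sum_hom hl, sub_zero, Finset.sum_const, Finset.card_univ, nsmul_one,
    ← Nat.card_eq_fintype_card, Nat.card_zpowers, F.hs,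
    inv_mul_cancel₀ (Nat.cast_ne_zero.2 (by have := F.he2; omega))]

theorem chi_ne_one (hχ : IsChi p χ) : χ ≠ Chars.oneChar G := by
  intro h
  have h1 := hχ.map_one
  rw [h, Chars.oneChar_apply] at h1
  exact hp.out.ne_one (Nat.cast_injective (R := ℂ) (by rw [← h1, Nat.cast_one]))

/-- The rest of the decomposition. -/
theorem exists_rest (F : Flip p e u₀ s t r) (hχ : IsChi p χ) {l : Subgroup.zpowers s →* ℂˣ}
    (hl : l ≠ 1) [Decidable (l = l ^ r)] :
    ∃ (c : IrrCharacter G → ℤ) (T : Finset (IrrCharacter G)), (∀ η, coef l η = c η) ∧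
      T.card = (if l = l ^ r then 2 else 1) ∧ (∀ η ∈ T, (c η = 1 ∨ c η = -1) ∧
        η ≠ Chars.oneChar G ∧ η ≠ χ) ∧
      (∀ η, η ≠ Chars.oneChar G → η ≠ χ → η ∉ T → c η = 0) ∧
      ∀ g, Phi l g = 1 + (χ : G → ℂ) g + ∑ η ∈ T, (c η : ℂ) * (η : G → ℂ) g := by
  classical
  choose c hc using F.exists_coef_int l
  have hsum := F.sum_coef_sq hl c hc
  set one := Chars.oneChar G
  have h1 : c one = 1 := Int.cast_injective (α := ℂ) (by rw [← hc, F.coef_one hl, Int.cast_one])
  have h2 : c χ = 1 := Int.cast_injective (α := ℂ) (by rw [← hc, F.coef_chi hχ hl, Int.cast_one])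
  set R := (Finset.univ.erase one).erase χ with hR
  have hmem : χ ∈ (Finset.univ : Finset (IrrCharacter G)).erase one := by
    simp [chi_ne_one (p := p) hχ, one]
  rw [← Finset.add_sum_erase _ _ (Finset.mem_univ one), ← Finset.add_sum_erase _ _ hmem, h1, h2,
    ← hR] at hsum
  set T := R.filter fun η => c η ≠ 0 with hT
  have hsumT : ∑ η ∈ T, c η ^ 2 = if l = l ^ r then 2 else 1 := by
    rw [Finset.sum_subset (Finset.filter_subset _ R) fun η hη hn => by
      have : c η = 0 := by simpa [T, hη] using hn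
      rw [this]; norm_num]
    split_ifs at hsum ⊢ <;> omega
  have hone : ∀ η ∈ T, c η ^ 2 = 1 := by
    intro η hη
    have hle := Finset.single_le_sum (f := fun η => c η ^ 2) (fun η _ => sq_nonneg _) hη
    rw [hsumT] at hle
    have hpos : c η ≠ 0 := (Finset.mem_filter.1 hη).2
    have hb : c η ^ 2 ≤ 2 := by split_ifs at hle <;> omega
    have : c η ≤ 1 ∧ -1 ≤ c η := ⟨by nlinarith, by nlinarith⟩
    obtain h | h : c η = 1 ∨ c η = -1 := by omega
    · rw [h]; norm_num
    · rw [h]; norm_num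
  refine ⟨c, T, hc, ?_, fun η hη => ⟨?_, ?_, ?_⟩, fun η h1' h2' hη => ?_, fun g => ?_⟩
  · rw [Finset.sum_congr rfl hone, Finset.sum_const, nsmul_one] at hsumT
    split_ifs at hsumT ⊢ <;> exact_mod_cast hsumT
  · rcases sq_eq_one_iff.1 (hone η hη) with h | h <;> simp [h]
  · exact Finset.ne_of_mem_erase (Finset.mem_of_mem_erase (Finset.mem_filter.1 hη).1)
  · exact Finset.ne_of_mem_erase (Finset.mem_filter.1 hη).1
  · by_contra h
    exact hη (Finset.mem_filter.2 ⟨Finset.mem_erase.2 ⟨h2', Finset.mem_erase.2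
      ⟨h1', Finset.mem_univ _⟩⟩, h⟩)
  · rw [Chars.eq_sum_classInner_mul (Phi_classFun l) g]
    simp only [show ∀ η : IrrCharacter G, classInner (Phi l) (η : G → ℂ) = c η from hc]
    rw [← Finset.add_sum_erase _ _ (Finset.mem_univ one), ← Finset.add_sum_erase _ _ hmem, ← hR,
      h1, h2, Int.cast_one, one_mul, one_mul, Chars.oneChar_apply, ← add_assoc]
    congr 1
    exact (Finset.sum_subset (Finset.filter_subset _ R) fun η hη hn => by
      have : c η = 0 := by simpa [T, hη] using hn
      rw [this, Int.cast_zero, zero_mul]).symm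

/-- The exceptional character of a pair. -/
theorem exists_X (F : Flip p e u₀ s t r) (hχ : IsChi p χ) {l : Subgroup.zpowers s →* ℂˣ}
    (hl : l ≠ 1) (hlr : l ≠ l ^ r) :
    ∃ X : IrrCharacter G, (∀ g, (X : G → ℂ) g = 1 + (χ : G → ℂ) g - Phi l g) ∧
      charDegree (X : G → ℂ) = p + 1 := by
  classical
  obtain ⟨c, T, -, hcard, hT, -, hΦ⟩ := F.exists_rest hχ hl
  rw [if_neg hlr] at hcard
  obtain ⟨X, rfl⟩ := Finset.card_eq_one.1 hcard
  have hcX : c X = -1 := by
    refine (hT X (Finset.mem_singleton_self X)).1.resolve_left fun h => ?_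
    have h1 := hΦ 1
    rw [Phi_one, Finset.sum_singleton, h, Int.cast_one, one_mul, hχ.map_one,
      ← Chars.coe_charDegree] at h1
    have h2 : ((1 + p + charDegree (X : G → ℂ) : ℕ) : ℂ) = 0 := by push_cast; linear_combination -h1
    have h3 : 1 + p + charDegree (X : G → ℂ) = 0 := by exact_mod_cast h2
    omega
  refine ⟨X, fun g => ?_, Chars.charDegree_eq_of_map_one ?_⟩
  · have h1 := hΦ g
    rw [Finset.sum_singleton, hcX] at h1
    push_cast at h1
    linear_combination h1
  · have h1 := hΦ 1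
    rw [Phi_one, Finset.sum_singleton, hcX, hχ.map_one] at h1
    push_cast at h1 ⊢
    linear_combination h1

/-- Distinct pairs give distinct exceptional characters. -/
theorem X_ne (F : Flip p e u₀ s t r) {l m : Subgroup.zpowers s →* ℂˣ} (hl : l ≠ 1) (hm : m ≠ 1)
    (hlr : l ≠ l ^ r) (h1 : l ≠ m) (h2 : l ≠ m ^ r) {X Y : IrrCharacter G}
    (hX : ∀ g, (X : G → ℂ) g = 1 + (χ : G → ℂ) g - Phi l g)
    (hY : ∀ g, (Y : G → ℂ) g = 1 + (χ : G → ℂ) g - Phi m g) : X ≠ Y := by
  classical
  rintro rfl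
  have hlm : Phi l = Phi m := funext fun g => by linear_combination hX g - hY g
  have h := F.inner_Phi_Phi hl hm
  rw [if_neg h1, if_neg h2, ← hlm, F.inner_Phi_Phi hl hl, if_pos rfl, if_neg hlr] at h
  norm_num at h

end Chi

end CfsgLib.PrimeTI.Setting.Flip
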