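import Cfsg.Agent.PrimeTI.Characters
import Cfsg.Agent.Blocks.OrderP.Principal

/-!
# Bookkeeping for the cyclic TI complement

The order of `N(P)`, the number of Sylow subgroups, and the exceptional characters indexed by the
pairs `{l, l ^ r}`.
-/

set_option autoImplicit false

noncomputable section

namespace CfsgLib.PrimeTI.Setting.Flip

open Cfsg CfsgLib Finset
open scoped ComplexConjugate

universe u

variable {G : Type u} [Group G] [Fintype G] {p e : ℕ} [hp : Fact p.Prime] {u₀ s t : G} {r : ℕ}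
  {χ : IrrCharacter G}

local instance instFintypeCommon (s : G) : Fintype (Subgroup.zpowers s) := Fintype.ofFinite _

local instance instFintypeHomCommon (s : G) : Fintype (Subgroup.zpowers s →* ℂˣ) :=
  Fintype.ofFinite _

theorem card_normalizer (F : Flip p e u₀ s t r) :
    Nat.card (Subgroup.normalizer (Subgroup.zpowers u₀ : Set G)) = e * p := by
  classical
  haveI : Fintype (Subgroup.zpowers u₀) := Fintype.ofFinite _
  let f : Fin e × Subgroup.zpowers u₀ → Subgroup.normalizer (Subgroup.zpowers u₀ : Set G) := fun a =>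
    ⟨s ^ (a.1 : ℕ) * (a.2 : G), mul_mem (pow_mem F.hsN _) (Subgroup.le_normalizer a.2.2)⟩
  have hf : Function.Bijective f := by
    refine ⟨fun a b hab => ?_, fun n => ?_⟩
    · have h : s ^ (a.1 : ℕ) * (a.2 : G) = s ^ (b.1 : ℕ) * b.2 := congrArg Subtype.val hab
      have h1 : (a.1 : ℕ) = b.1 := F.toSetting.toLocal.hinj _ a.1.2 _ b.1.2 (by
        rw [show (s ^ (a.1 : ℕ))⁻¹ * s ^ (b.1 : ℕ) = (a.2 : G) * (b.2 : G)⁻¹ by
          rw [eq_mul_inv_iff_mul_eq, mul_assoc, ← h, inv_mul_cancel_left]]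
        exact mul_mem a.2.2 (inv_mem b.2.2))
      rw [h1] at h
      exact Prod.ext (Fin.ext h1) (Subtype.ext (mul_left_cancel h))
    · obtain ⟨k, hk, x, hx, h⟩ := F.hgen n n.2
      exact ⟨(⟨k, hk⟩, ⟨x, hx⟩), Subtype.ext h.symm⟩
  rw [← Nat.card_eq_of_bijective f hf, Nat.card_prod, Nat.card_fin, Nat.card_zpowers, F.hu]

theorem relIndex_centralizer (F : Flip p e u₀ s t r) :
    (Subgroup.centralizer (Subgroup.zpowers u₀ : Set G)).relIndex
      (Subgroup.normalizer (Subgroup.zpowers u₀ : Set G)) = e := by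
  rw [Blocks.HeightZero.centralizer_zpowers_eq, F.hC]
  have h := Subgroup.card_mul_index ((Subgroup.zpowers u₀).subgroupOf
    (Subgroup.normalizer (Subgroup.zpowers u₀ : Set G)))
  rw [Nat.card_congr (Subgroup.subgroupOfEquivOfLe Subgroup.le_normalizer).toEquiv, Nat.card_zpowers,
    F.hu, F.card_normalizer, mul_comm e] at h
  exact Nat.eq_of_mul_eq_mul_left hp.out.pos h

/-- The number of Sylow subgroups. -/
theorem exists_count (F : Flip p e u₀ s t r) : ∃ k : ℕ, 1 ≤ k ∧
    (Subgroup.normalizer (Subgroup.zpowers u₀ : Set G)).index = 1 + k * p ∧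
    Nat.card G = p * e * (1 + k * p) := by
  classical
  have hgrp : IsPGroup p (Subgroup.zpowers u₀) :=
    IsPGroup.of_card (n := 1) (by rw [Nat.card_zpowers, F.hu, pow_one])
  let P : Sylow p G := hgrp.toSylow F.hidx
  set N := Subgroup.normalizer (Subgroup.zpowers u₀ : Set G)
  have hidx : Nat.card (Sylow p G) = N.index := Sylow.card_eq_index_normalizer P
  have hmod : N.index % p = 1 := by
    rw [← hidx, card_sylow_modEq_one p G, Nat.mod_eq_of_lt hp.out.one_lt]
  have hne : N.index ≠ 1 := by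
    intro h
    rw [Subgroup.index_eq_one, Subgroup.normalizer_eq_top_iff] at h
    haveI := F.simple
    rcases h.eq_bot_or_eq_top with hb | ht
    · have := F.hu
      rw [Subgroup.zpowers_eq_bot.1 hb, orderOf_one] at this
      exact hp.out.ne_one this.symm
    · have hbot : commutator G = ⊥ := by
        rw [commutator_def, ← ht, Subgroup.commutator_eq_bot_iff_le_centralizer,
          Blocks.HeightZero.centralizer_zpowers_eq, F.hC]
      rw [F.perfect] at hbot
      have := F.hu
      have hu1 : u₀ = 1 := Subgroup.mem_bot.1 (hbot ▸ Subgroup.mem_top u₀)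
      rw [hu1, orderOf_one] at this
      exact hp.out.ne_one this.symm
  refine ⟨N.index / p, ?_, ?_, ?_⟩
  · by_contra hlt
    have h0 : N.index / p = 0 := Nat.lt_one_iff.1 (not_le.1 hlt)
    have := Nat.div_add_mod N.index p
    rw [h0, hmod] at this
    omega
  · have := Nat.div_add_mod N.index p
    rw [hmod] at this
    rw [mul_comm]
    omega
  · rw [← Subgroup.card_mul_index N, F.card_normalizer]
    have := Nat.div_add_mod N.index p
    rw [hmod] at this
    rw [show N.index = 1 + N.index / p * p by rw [mul_comm]; omega, mul_comm e p,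
      show (1 + N.index / p * p) / p = N.index / p by
        rw [Nat.add_mul_div_right _ _ hp.out.pos, Nat.div_eq_of_lt hp.out.one_lt, zero_add]]

theorem Phi_pow_r (F : Flip p e u₀ s t r) (l : Subgroup.zpowers s →* ℂˣ) :
    Phi (l ^ r) = Phi l := by
  funext g
  by_cases h : ∃ x : G, x⁻¹ * g * x ∈ Subgroup.zpowers s
  · obtain ⟨x, hx⟩ := h
    have hg : g = x * (x⁻¹ * g * x) * x⁻¹ := by group
    have h2 : ∀ y : Subgroup.zpowers s, ((l ^ r) ^ r) y = l y := fun y => by
      simp only [MonoidHom.pow_apply, ← pow_mul, ← map_pow]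
      exact congrArg l (Subtype.ext (by rw [SubgroupClass.coe_pow, F.pow_sq y.2]))
    rw [hg, Phi_classFun, Phi_classFun, F.Phi_mem (l ^ r) ⟨_, hx⟩, F.Phi_mem l ⟨_, hx⟩, h2]
    ring
  · push Not at h
    rw [Phi_eq_zero _ h, Phi_eq_zero _ h]

theorem pow_r_r (F : Flip p e u₀ s t r) (l : Subgroup.zpowers s →* ℂˣ) : (l ^ r) ^ r = l := by
  refine MonoidHom.ext fun y => ?_
  simp only [MonoidHom.pow_apply, ← pow_mul, ← map_pow]
  exact congrArg l (Subtype.ext (by rw [SubgroupClass.coe_pow, F.pow_sq y.2]))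

theorem hom_ext_gen {l m : Subgroup.zpowers s →* ℂˣ}
    (h : l ⟨s, Subgroup.mem_zpowers s⟩ = m ⟨s, Subgroup.mem_zpowers s⟩) : l = m := by
  refine MonoidHom.ext fun x => ?_
  obtain ⟨k, hk⟩ := Subgroup.mem_zpowers_iff.1 x.2
  have hx : x = (⟨s, Subgroup.mem_zpowers s⟩ : Subgroup.zpowers s) ^ k :=
    Subtype.ext (by rw [SubgroupClass.coe_zpow, hk])
  rw [hx, map_zpow, map_zpow, h]

theorem gen_pow_eq (F : Flip p e u₀ s t r) (l : Subgroup.zpowers s →* ℂˣ) :
    l ⟨s, Subgroup.mem_zpowers s⟩ ^ e = 1 := by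
  rw [← map_pow, show (⟨s, Subgroup.mem_zpowers s⟩ : Subgroup.zpowers s) ^ e = 1 from
    Subtype.ext (by rw [SubgroupClass.coe_pow, ← F.hs, pow_orderOf_eq_one]; rfl), map_one]

theorem sq_of_fixed (F : Flip p e u₀ s t r) {l : Subgroup.zpowers s →* ℂˣ} (h : l = l ^ r) :
    l ⟨s, Subgroup.mem_zpowers s⟩ ^ 2 = 1 :=
  F.sq_eq_one (F.gen_pow_eq l) (by
    conv_rhs => rw [h]
    rfl)

theorem card_hom (F : Flip p e u₀ s t r) : Fintype.card (Subgroup.zpowers s →* ℂˣ) = e := by
  have hbot : commutator (Subgroup.zpowers s) = ⊥ := by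
    rw [commutator_def, Subgroup.commutator_eq_bot_iff_le_centralizer]
    intro a _ b _
    exact Subtype.ext (E_comm b.2 a.2)
  rw [← Nat.card_eq_fintype_card, Chars.card_monoidHom_units, hbot, Subgroup.index_bot,
    Nat.card_zpowers, F.hs]

open scoped Classical in
/-- The homomorphisms moved by `r`. -/
def moved (s : G) (r : ℕ) : Finset (Subgroup.zpowers s →* ℂˣ) :=
  Finset.univ.filter fun l => l ≠ l ^ r

theorem mem_moved {l : Subgroup.zpowers s →* ℂˣ} : l ∈ moved s r ↔ l ≠ l ^ r := by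
  classical
  simp [moved]

theorem moved_ne_one {l : Subgroup.zpowers s →* ℂˣ} (h : l ∈ moved s r) : l ≠ 1 := by
  rintro rfl
  exact mem_moved.1 h (by ext; simp)

theorem pow_mem_moved (F : Flip p e u₀ s t r) {l : Subgroup.zpowers s →* ℂˣ} (h : l ∈ moved s r) :
    l ^ r ∈ moved s r := by
  rw [mem_moved, F.pow_r_r]
  exact fun h' => mem_moved.1 h h'.symm

/-- The exceptional characters, chosen for the moved homomorphisms. -/
theorem exists_Xfun (F : Flip p e u₀ s t r) (hχ : IsChi p χ) :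
    ∃ X : (Subgroup.zpowers s →* ℂˣ) → IrrCharacter G, ∀ l ∈ moved s r,
      (∀ g, (X l : G → ℂ) g = 1 + (χ : G → ℂ) g - Phi l g) ∧
        charDegree (X l : G → ℂ) = p + 1 := by
  classical
  refine ⟨fun l => if h : l ∈ moved s r then
    (F.exists_X hχ (moved_ne_one h) (mem_moved.1 h)).choose else Chars.oneChar G, fun l hl => ?_⟩
  simp only [dif_pos hl]
  exact (F.exists_X hχ (moved_ne_one hl) (mem_moved.1 hl)).choose_spec

variable {X : (Subgroup.zpowers s →* ℂˣ) → IrrCharacter G}

theorem X_eq_iff (F : Flip p e u₀ s t r)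
    (hX : ∀ l ∈ moved s r, (∀ g, (X l : G → ℂ) g = 1 + (χ : G → ℂ) g - Phi l g) ∧
      charDegree (X l : G → ℂ) = p + 1)
    {l m : Subgroup.zpowers s →* ℂˣ} (hl : l ∈ moved s r) (hm : m ∈ moved s r) :
    X l = X m ↔ l = m ∨ l = m ^ r := by
  constructor
  · intro h
    by_contra hne
    push Not at hne
    exact F.X_ne (moved_ne_one hl) (moved_ne_one hm) (mem_moved.1 hl) hne.1 hne.2 (hX l hl).1
      (hX m hm).1 h
  · rintro (rfl | rfl)
    · rfl
    · exact Subtype.ext (funext fun g => by rw [(hX _ hl).1, (hX m hm).1, F.Phi_pow_r])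

theorem two_mul_card_image (F : Flip p e u₀ s t r) [DecidableEq (IrrCharacter G)]
    (hX : ∀ l ∈ moved s r, (∀ g, (X l : G → ℂ) g = 1 + (χ : G → ℂ) g - Phi l g) ∧
      charDegree (X l : G → ℂ) = p + 1) :
    2 * ((moved s r).image X).card = (moved s r).card := by
  classical
  rw [Finset.card_eq_sum_card_image X (moved s r), Finset.sum_const_nat (m := 2), mul_comm]
  intro Y hY
  obtain ⟨m, hm, rfl⟩ := Finset.mem_image.1 hY
  have : (moved s r).filter (fun l => X l = X m) = {m, m ^ r} := by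
    ext l
    simp only [Finset.mem_filter, Finset.mem_insert, Finset.mem_singleton]
    constructor
    · rintro ⟨hl, h⟩
      exact (F.X_eq_iff hX hl hm).1 h
    · rintro (rfl | rfl)
      · exact ⟨hm, rfl⟩
      · exact ⟨F.pow_mem_moved hm, (F.X_eq_iff hX (F.pow_mem_moved hm) hm).2 (Or.inr rfl)⟩
  rw [this, Finset.card_pair (mem_moved.1 hm)]

theorem X_apply_upow (F : Flip p e u₀ s t r) (hχ : IsChi p χ)
    (hX : ∀ l ∈ moved s r, (∀ g, (X l : G → ℂ) g = 1 + (χ : G → ℂ) g - Phi l g) ∧
      charDegree (X l : G → ℂ) = p + 1)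
    {l : Subgroup.zpowers s →* ℂˣ} (hl : l ∈ moved s r) {g : G} (hg : p ∣ orderOf g) :
    (X l : G → ℂ) g = 1 := by
  rw [(hX l hl).1, F.chi_singular hχ hg, F.Phi_singular l hg, add_zero, sub_zero]

open scoped Classical in
theorem coef_moved
    (hX : ∀ l ∈ moved s r, (∀ g, (X l : G → ℂ) g = 1 + (χ : G → ℂ) g - Phi l g) ∧
      charDegree (X l : G → ℂ) = p + 1)
    {l : Subgroup.zpowers s →* ℂˣ} (hl : l ∈ moved s r) (η : IrrCharacter G) :
    coef l η = (if Chars.oneChar G = η then 1 else 0) + (if χ = η then 1 else 0) -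
      (if X l = η then 1 else 0) := by
  have h : Phi l = (Chars.oneChar G : G → ℂ) + (χ : G → ℂ) - (X l : G → ℂ) := funext fun g => by
    rw [Pi.sub_apply, Pi.add_apply, (hX l hl).1, Chars.oneChar_apply]; ring
  rw [coef, h, Chars.classInner_sub_left, Chars.classInner_add_left, Chars.classInner_irr,
    Chars.classInner_irr, Chars.classInner_irr]

theorem coef_trivial (F : Flip p e u₀ s t r) (η : IrrCharacter G) :
    coef (1 : Subgroup.zpowers s →* ℂˣ) η = 0 := by
  rw [coef, F.classInner_Phi 1 (Chars.isClassFunction_coe η)]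
  simp

/-- Powers prime to the order permute the coefficients. -/
theorem coef_powIrr {k : ℕ} (hk : k.Coprime (Nat.card G)) (l : Subgroup.zpowers s →* ℂˣ)
    (η : IrrCharacter G) : coef (l ^ k) (Blocks.Orth.powIrr hk η) = coef l η := by
  rw [coef, coef, classInner, classInner]
  congr 1
  refine Fintype.sum_equiv (powCoprime (G := G) hk.symm) _ _ fun g => ?_
  show _ = Phi l (g ^ k) * conj ((η : G → ℂ) (g ^ k))
  rw [Phi_pow hk, Blocks.Orth.powIrr_apply]

end CfsgLib.PrimeTI.Setting.Flip
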