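import Cfsg.Agent.PrimeTI.Common
import Cfsg.Agent.Blocks.OrderP.Perfect.RecogPSL

/-!
# The case of a complement of even order

Counting the pairs of conjugates of the involution `z` of `E` with product `u` determines the order
of `G`: it is `p (p² - 1) / 2`.
-/

set_option autoImplicit false

noncomputable section

namespace CfsgLib.PrimeTI.Setting.Flip

open Cfsg CfsgLib Finset
open scoped ComplexConjugate

universe u

variable {G : Type u} [Group G] [Fintype G] {p e : ℕ} [hp : Fact p.Prime] {u₀ s t : G} {r : ℕ}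
  {χ : IrrCharacter G}

local instance instFintypeEven (s : G) : Fintype (Subgroup.zpowers s) := Fintype.ofFinite _

local instance instFintypeHomEven (s : G) : Fintype (Subgroup.zpowers s →* ℂˣ) :=
  Fintype.ofFinite _

theorem half_mem (s : G) (e : ℕ) : s ^ (e / 2) ∈ Subgroup.zpowers s :=
  pow_mem (Subgroup.mem_zpowers s) _

theorem centralizer_half (F : Flip p e u₀ s t r) (he : 2 ∣ e) :
    Subgroup.centralizer ({s ^ (e / 2)} : Set G) =
      Subgroup.normalizer (Subgroup.zpowers s : Set G) := by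
  refine le_antisymm (F.centralizer_le (half_mem s e) F.pow_half_ne) fun g hg => ?_
  rw [Subgroup.mem_centralizer_singleton_iff]
  conv_rhs => rw [← F.conj_half he hg, inv_mul_cancel_right]

/-- The involution inverts `P`. -/
theorem half_inverts (F : Flip p e u₀ s t r) (he : 2 ∣ e) {v : G} (hv : v ∈ Subgroup.zpowers u₀) :
    s ^ (e / 2) * v * (s ^ (e / 2))⁻¹ = v⁻¹ := by
  set z := s ^ (e / 2)
  have hz2 : z * z = 1 := by rw [← pow_two]; exact F.pow_half_sq he
  have hzinv : z⁻¹ = z := inv_eq_of_mul_eq_one_right hz2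
  have hw : z * v * z⁻¹ ∈ Subgroup.zpowers u₀ :=
    (Subgroup.mem_set_normalizer_iff.1 (pow_mem F.hsN _) v).1 hv
  have hc : v * (z * v * z⁻¹) = z * v * z⁻¹ * v := by
    obtain ⟨i, hi⟩ := Subgroup.mem_zpowers_iff.1 hw
    obtain ⟨j, hj⟩ := Subgroup.mem_zpowers_iff.1 hv
    rw [← hi, ← hj]
    exact (Commute.refl u₀).zpow_zpow j i
  have h1 : z * (z * v * z⁻¹ * v) = z * v * z⁻¹ * v * z := by
    rw [hzinv, show z * (z * v * z * v) = (z * z) * (v * (z * v)) by group, hz2, one_mul,
      show z * v * z * v * z = z * v * (z * v * z) by group, mul_assoc z v,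
      ← mul_assoc v (z * v) z]
    have := hc
    rw [hzinv] at this
    calc v * (z * v) = v * (z * v * z) * z := by
          simp only [mul_assoc, hz2, mul_one]
      _ = z * v * z * v * z := by rw [this]
      _ = _ := by simp only [mul_assoc]
  have h2 := F.eq_one_of_mem (mul_mem hw hv) (by
    rw [← F.centralizer_half he, Subgroup.mem_centralizer_singleton_iff]
    exact h1.symm)
  exact eq_inv_of_mul_eq_one_left h2

open scoped Classical in
/-- The number of `g` with `u₀ * g z g⁻¹` conjugate to `z`. -/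
theorem card_pairs (F : Flip p e u₀ s t r) (he : 2 ∣ e) :
    (Finset.univ.filter fun g : G =>
      IsConj (s ^ (e / 2)) (u₀ * (g * s ^ (e / 2) * g⁻¹))).card = p * (2 * e) := by
  classical
  set z := s ^ (e / 2) with hz
  set N := Subgroup.normalizer (Subgroup.zpowers s : Set G) with hN
  haveI : Fintype (Subgroup.zpowers u₀) := Fintype.ofFinite _
  haveI : Fintype N := Fintype.ofFinite _
  have hz2 : z * z = 1 := by rw [← pow_two]; exact F.pow_half_sq he
  have hzinv : z⁻¹ = z := inv_eq_of_mul_eq_one_right hz2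
  let f : Subgroup.zpowers u₀ × N → G := fun a => (a.1 : G) * (a.2 : G)
  have hf : Function.Injective f := by
    intro a b hab
    have h : (b.1 : G)⁻¹ * a.1 = (b.2 : G) * (a.2 : G)⁻¹ := by
      rw [eq_mul_inv_iff_mul_eq, mul_assoc]
      exact (congrArg ((b.1 : G)⁻¹ * ·) hab).trans (inv_mul_cancel_left _ _)
    have h1 := F.eq_one_of_mem (mul_mem (inv_mem b.1.2) a.1.2) (h ▸ mul_mem b.2.2 (inv_mem a.2.2))
    have h2 : (a.1 : G) = b.1 := (inv_mul_eq_one.1 h1).symm
    have h3 : (a.2 : G) = b.2 := by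
      have h4 : (a.1 : G) * a.2 = b.1 * b.2 := hab
      rw [h2] at h4
      exact mul_left_cancel h4
    exact Prod.ext (Subtype.ext h2) (Subtype.ext h3)
  have himg : (Finset.univ.filter fun g : G => IsConj z (u₀ * (g * z * g⁻¹))) =
      Finset.univ.image f := by
    ext g
    simp only [Finset.mem_filter, Finset.mem_univ, true_and, Finset.mem_image]
    constructor
    · intro hc
      set a := g * z * g⁻¹ with ha
      have ha2 : a * a = 1 := by
        rw [ha, show g * z * g⁻¹ * (g * z * g⁻¹) = g * (z * z) * g⁻¹ by group, hz2, mul_one,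
          mul_inv_cancel]
      have ha1 : a ≠ 1 := fun h => F.pow_half_ne (conj_eq_one_iff.1 (ha.symm.trans h))
      obtain ⟨c, hc'⟩ := isConj_iff.1 hc
      have hw2 : u₀ * a * (u₀ * a) = 1 := by
        rw [← hc', show c * z * c⁻¹ * (c * z * c⁻¹) = c * (z * z) * c⁻¹ by group, hz2, mul_one,
          mul_inv_cancel]
      have hainv : a⁻¹ = a := inv_eq_of_mul_eq_one_right ha2
      have hau : a * u₀ * a⁻¹ = u₀⁻¹ := by
        rw [hainv]
        refine eq_inv_of_mul_eq_one_right ?_
        rw [← hw2]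
        group
      have haN : a ∈ Subgroup.normalizer (Subgroup.zpowers u₀ : Set G) := by
        rw [Subgroup.mem_set_normalizer_iff]
        intro y
        have key : ∀ y : G, y ∈ Subgroup.zpowers u₀ → a * y * a⁻¹ ∈ Subgroup.zpowers u₀ := by
          intro y hy
          obtain ⟨i, rfl⟩ := Subgroup.mem_zpowers_iff.1 hy
          rw [← conj_zpow, hau]
          exact zpow_mem (inv_mem (Subgroup.mem_zpowers u₀)) i
        refine ⟨key y, fun hy => ?_⟩
        have h := key _ hy
        rwa [show a * (a * y * a⁻¹) * a⁻¹ = (a * a) * y * (a * a)⁻¹ by group, ha2, one_mul, inv_one,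
          mul_one] at h
      obtain ⟨k, -, x, hx, hax⟩ := F.hgen a haN
      have hk1 : s ^ k ≠ 1 := by
        intro h
        rw [h, one_mul] at hax
        have h1 : orderOf a ∣ p :=
          F.hu ▸ Nat.card_zpowers u₀ ▸ Subgroup.orderOf_dvd_natCard _ (hax ▸ hx)
        have h2 : orderOf a ∣ 2 := orderOf_dvd_of_pow_eq_one (by rw [pow_two, ha2])
        have h3 : orderOf a ∣ Nat.gcd p 2 := Nat.dvd_gcd h1 h2
        rw [((Nat.coprime_primes hp.out Nat.prime_two).2 (by
          have := F.five_le; have := F.he2; omega)).gcd_eq_one, Nat.dvd_one, orderOf_eq_one_iff] at h3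
        exact ha1 h3
      obtain ⟨w, hw, hww⟩ := F.exists_conj (pow_mem (Subgroup.mem_zpowers s) k) hk1 hx
      have hk2 : s ^ k * s ^ k = 1 := by
        have h := ha2
        rw [hax, ← hww, show w * s ^ k * w⁻¹ * (w * s ^ k * w⁻¹) = w * (s ^ k * s ^ k) * w⁻¹ by
          group, conj_eq_one_iff] at h
        exact h
      have hkz : s ^ k = z := F.eq_half (pow_mem (Subgroup.mem_zpowers s) k) hk2 hk1
      refine ⟨(⟨w, hw⟩, ⟨w⁻¹ * g, ?_⟩), mul_inv_cancel_left _ _⟩
      rw [hN, ← F.centralizer_half he, Subgroup.mem_centralizer_singleton_iff]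
      have h : g * z * g⁻¹ = w * z * w⁻¹ := by rw [← ha, hax, ← hww, hkz]
      calc w⁻¹ * g * z = w⁻¹ * (g * z * g⁻¹) * g := by group
        _ = z * (w⁻¹ * g) := by rw [h]; group
    · rintro ⟨⟨v, c⟩, rfl⟩
      show IsConj z (u₀ * ((v : G) * c * z * ((v : G) * c)⁻¹))
      have hcz : (c : G) * z * (c : G)⁻¹ = z := F.conj_half he c.2
      rw [show (v : G) * c * z * ((v : G) * c)⁻¹ = (v : G) * ((c : G) * z * (c : G)⁻¹) * (v : G)⁻¹ by
        group, hcz]
      have h1 := F.half_inverts he (mul_mem (Subgroup.mem_zpowers u₀) v.2)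
      rw [← hz, hzinv] at h1
      obtain ⟨w, -, hw⟩ := F.exists_conj (half_mem s e) F.pow_half_ne
        (mul_mem (inv_mem (mul_mem (Subgroup.mem_zpowers u₀) v.2)) (inv_mem v.2))
      refine isConj_iff.2 ⟨w, hw.trans ?_⟩
      rw [← hz, ← h1]
      simp only [← mul_assoc, hz2, one_mul]
  rw [himg, Finset.card_image_of_injective _ hf, Finset.card_univ, Fintype.card_prod,
    ← Nat.card_eq_fintype_card, ← Nat.card_eq_fintype_card, Nat.card_zpowers, F.hu, F.hNE]

/-- The class equation for the pairs. -/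
theorem sum_eq_count (F : Flip p e u₀ s t r) (he : 2 ∣ e) :
    (Nat.card G : ℂ) * ∑ η : IrrCharacter G, (η : G → ℂ) u₀ * ((η : G → ℂ) (s ^ (e / 2)) *
      conj ((η : G → ℂ) (s ^ (e / 2)))) / (η : G → ℂ) 1 = 4 * (e : ℂ) ^ 2 * p := by
  classical
  set z := s ^ (e / 2) with hz
  have hw : ∀ w : G, ∑ η : IrrCharacter G, (η : G → ℂ) w * conj ((η : G → ℂ) z) =
      if IsConj z w then (2 * e : ℂ) else 0 := by
    intro w
    have h := congrArg conj (Chars.sum_irr_mul_conj z w)
    simp only [map_sum, map_mul, Complex.conj_conj] at h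
    rw [Finset.sum_congr rfl fun η _ => mul_comm _ _, h, hz, F.centralizer_half he, F.hNE]
    split_ifs <;> simp [map_ofNat]
  calc (Nat.card G : ℂ) * ∑ η : IrrCharacter G, (η : G → ℂ) u₀ * ((η : G → ℂ) z *
        conj ((η : G → ℂ) z)) / (η : G → ℂ) 1
      = ∑ η : IrrCharacter G, (∑ g : G, (η : G → ℂ) (u₀ * (g * z * g⁻¹))) *
          conj ((η : G → ℂ) z) := by
        rw [Finset.mul_sum]
        refine Finset.sum_congr rfl fun η _ => ?_
        rw [Chars.sum_map_mul_conjugate η u₀ z]
        ring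
    _ = ∑ g : G, if IsConj z (u₀ * (g * z * g⁻¹)) then (2 * e : ℂ) else 0 := by
        simp only [Finset.sum_mul]
        rw [Finset.sum_comm]
        exact Finset.sum_congr rfl fun g _ => hw _
    _ = _ := by
        rw [← Finset.sum_filter, Finset.sum_const, hz, F.card_pairs he, nsmul_eq_mul]
        push_cast
        ring

theorem arith_swap {p e k m : ℕ} (hm : m * e = p - 1) (hm2 : 2 ≤ m) (hp : 2 ≤ p) (he : 1 ≤ e)
    (hk : 1 ≤ k) (h : (1 + k * p) * (p + 2 * e - 1) = 4 * e * (p + 1)) : k = 1 ∧ 2 * e + 1 = p := by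
  have h1 : p + 2 * e - 1 = (m + 2) * e := by rw [add_mul]; omega
  rw [h1] at h
  have h2 : (1 + k * p) * (m + 2) = 4 * (p + 1) :=
    Nat.eq_of_mul_eq_mul_right he (by linarith [h])
  have hk1 : k = 1 := by
    by_contra hne
    have h3 : 2 * p ≤ k * p := Nat.mul_le_mul_right p (by omega)
    nlinarith
  subst hk1
  have hm' : m = 2 := by nlinarith
  subst hm'
  exact ⟨rfl, by omega⟩

theorem arith_fixed {p e k m : ℕ} {A : ℕ} {v : ℤ} (hm : (m : ℤ) * e = (p : ℤ) - 1) (hm2 : m % 2 = 0)
    (hm0 : 1 ≤ m) (he : 2 ≤ e) (hk : 1 ≤ k) (hA : 1 ≤ A) (hv : v = 1 ∨ v = -1)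
    (hmod : (p : ℤ) ∣ (A : ℤ) - v)
    (h : (1 + (k : ℤ) * p) * (((p : ℤ) + 2 * e - 3) * A + v * ((p : ℤ) + 1)) =
      4 * e * ((p : ℤ) + 1) * A) : False := by
  have hp5 : (5 : ℤ) ≤ p := by
    have : (2 : ℤ) * 2 ≤ m * e := by
      have : (2 : ℕ) * 2 ≤ m * e := Nat.mul_le_mul (by omega) he
      exact_mod_cast this
    omega
  have hA1 : v = -1 → (p : ℤ) - 1 ≤ A := by
    rintro rfl
    obtain ⟨j, hj⟩ := hmod
    have hj1 : 1 ≤ j := by
      by_contra hlt
      have : (p : ℤ) * j ≤ 0 := mul_nonpos_of_nonneg_of_nonpos (by omega) (by omega)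
      omega
    have : (p : ℤ) * 1 ≤ p * j := mul_le_mul_of_nonneg_left hj1 (by omega)
    omega
  have hA' : (1 : ℤ) ≤ A := by exact_mod_cast hA
  have he' : (2 : ℤ) ≤ e := by exact_mod_cast he
  rcases (show m = 2 ∨ 4 ≤ m by omega) with rfl | hm4
  · push_cast at hm
    have hpe : (p : ℤ) = 2 * e + 1 := by omega
    rcases (show k = 1 ∨ 2 ≤ k by omega) with rfl | hk2
    · push_cast at h
      have h2 : ((p : ℤ) + 2 * e - 3) * A + v * ((p : ℤ) + 1) = 4 * e * A := by
        have h3 : ((p : ℤ) + 1) * ((((p : ℤ) + 2 * e - 3) * A + v * ((p : ℤ) + 1)) - 4 * e * A) = 0 := by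
          linarith
        have := (mul_eq_zero.1 h3).resolve_left (by omega)
        linarith
      rw [hpe] at h2
      rcases hv with rfl | rfl
      · have h4 : (A : ℤ) = e + 1 := by linarith
        obtain ⟨j, hj⟩ := hmod
        rw [h4, hpe] at hj
        rcases lt_trichotomy j 0 with hj0 | hj0 | hj0
        · nlinarith
        · subst hj0; omega
        · nlinarith
      · linarith
    · have hk' : (2 : ℤ) ≤ k := by exact_mod_cast hk2
      set Q := ((p : ℤ) + 2 * e - 3) * A + v * ((p : ℤ) + 1) with hQ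
      have hQpos : 4 * (e : ℤ) * ((p : ℤ) + 1) * A < (1 + 2 * (p : ℤ)) * Q := by
        rcases hv with rfl | rfl
        · rw [hQ, hpe]
          have h5 : (0 : ℤ) ≤ A * (8 * (e : ℤ) ^ 2 - 4 * e - 6) :=
            mul_nonneg (by omega) (by nlinarith)
          nlinarith
        · have := hA1 rfl
          rw [hQ, hpe]
          rw [hpe] at this
          have h5 : (2 * (e : ℤ)) * (8 * (e : ℤ) ^ 2 - 4 * e - 6) ≤
              A * (8 * (e : ℤ) ^ 2 - 4 * e - 6) :=
            mul_le_mul_of_nonneg_right (by omega) (by nlinarith)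
          nlinarith [mul_le_mul he' (mul_le_mul he' he' (by norm_num) (by omega)) (by norm_num) (by omega)]
      have hQ0 : 0 ≤ Q := by
        by_contra hlt
        have h5 : (1 + 2 * (p : ℤ)) * Q < 0 := mul_neg_of_pos_of_neg (by omega) (by omega)
        have h6 : (0 : ℤ) ≤ 4 * e * ((p : ℤ) + 1) * A := by positivity
        omega
      have : (1 + 2 * (p : ℤ)) * Q ≤ (1 + (k : ℤ) * p) * Q :=
        mul_le_mul_of_nonneg_right (by nlinarith) hQ0
      linarith
  · have hm4' : (4 : ℤ) ≤ m := by exact_mod_cast hm4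
    have hpe : 4 * (e : ℤ) + 1 ≤ p := by nlinarith
    set Q := ((p : ℤ) + 2 * e - 3) * A + v * ((p : ℤ) + 1) with hQ
    have hQpos : 4 * (e : ℤ) * A < Q := by
      rcases hv with rfl | rfl
      · rw [hQ]; nlinarith
      · have := hA1 rfl; rw [hQ]; nlinarith
    have hQ0 : 0 ≤ Q := by nlinarith
    have : (1 + (p : ℤ)) * Q ≤ (1 + (k : ℤ) * p) * Q :=
      mul_le_mul_of_nonneg_right (by nlinarith) hQ0
    nlinarith

/-- The values of the characters of the decomposition at the involution and at `u₀`. -/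
theorem even_case (F : Flip p e u₀ s t r) (hχ : IsChi p χ) (he : 2 ∣ e) :
    ∃ (K : Type) (_ : Field K) (_ : Fintype K), Fintype.card K = p ∧
      Nonempty (G ≃* Matrix.ProjectiveSpecialLinearGroup (Fin 2) K) := by
  classical
  have he0 : 0 < e := by have := F.he2; omega
  set z := s ^ (e / 2) with hz
  set zE : Subgroup.zpowers s := ⟨z, half_mem s e⟩ with hzE
  have hzE1 : zE ≠ 1 := fun h => F.pow_half_ne (congrArg Subtype.val h)
  have hzr : zE ^ r = zE := by
    refine Subtype.ext ?_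
    show z ^ r = z
    rw [← F.conj_E (half_mem s e)]
    exact F.conj_half he F.ht
  have hz2 : zE ^ 2 = 1 := Subtype.ext (by rw [SubgroupClass.coe_pow]; exact F.pow_half_sq he)
  -- the homomorphisms
  set gen : Subgroup.zpowers s := ⟨s, Subgroup.mem_zpowers s⟩ with hgen'
  set fixedH := Finset.univ.filter fun l : Subgroup.zpowers s →* ℂˣ => l = l ^ r with hfixed
  have hsplit : fixedH.card + (moved s r).card = e := by
    rw [hfixed, moved, Finset.card_filter_add_card_filter_not, Finset.card_univ, F.card_hom]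
  have hle2 : fixedH.card ≤ 2 := by
    refine le_trans (Finset.card_le_card_of_injOn (t := ({1, -1} : Finset ℂˣ)) (fun l => l gen)
      (fun l hl => ?_) fun l _ m _ h => hom_ext_gen h) Finset.card_le_two
    have h := F.sq_of_fixed (Finset.mem_filter.1 (Finset.mem_coe.1 hl)).2
    have h' : ((l gen : ℂˣ) : ℂ) ^ 2 = 1 := by rw [← Units.val_pow_eq_pow_val, h, Units.val_one]
    simp only [Finset.coe_insert, Finset.coe_singleton, Set.mem_insert_iff, Set.mem_singleton_iff]
    exact (sq_eq_one_iff.1 h').imp (fun h => Units.ext h) fun h => Units.ext (by rw [h]; simp)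
  have h1fix : (1 : Subgroup.zpowers s →* ℂˣ) ∈ fixedH := by
    refine Finset.mem_filter.2 ⟨Finset.mem_univ _, ?_⟩
    ext
    simp
  obtain ⟨X, hX⟩ := F.exists_Xfun hχ
  set Xs := (moved s r).image X with hXs
  have hcardX : 2 * Xs.card = (moved s r).card := F.two_mul_card_image hX
  have hfix2 : fixedH.card = 2 := by
    have := Finset.card_pos.2 ⟨_, h1fix⟩
    obtain ⟨j, hj⟩ := he
    omega
  have hK : 2 * Xs.card + 2 = e := by omega
  obtain ⟨l₀, hl₀fix, hl₀⟩ := Finset.exists_mem_ne (by rw [hfix2]; norm_num) (1 : Subgroup.zpowers s →* ℂˣ)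
  have hl₀r : l₀ = l₀ ^ r := (Finset.mem_filter.1 hl₀fix).2
  have hfixed_eq : ∀ l : Subgroup.zpowers s →* ℂˣ, l = l ^ r → l = 1 ∨ l = l₀ := by
    intro l hl
    have hsub : ({1, l₀} : Finset (Subgroup.zpowers s →* ℂˣ)) = fixedH :=
      Finset.eq_of_subset_of_card_le (Finset.insert_subset h1fix (Finset.singleton_subset_iff.2 hl₀fix))
        (by rw [hfix2, Finset.card_pair (Ne.symm hl₀)])
    have : l ∈ ({1, l₀} : Finset (Subgroup.zpowers s →* ℂˣ)) := hsub ▸ Finset.mem_filter.2
      ⟨Finset.mem_univ l, hl⟩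
    simpa using this
  -- the decomposition at the fixed homomorphism
  obtain ⟨c, T, hc, hTcard, hT, hout, hΦ⟩ := F.exists_rest hχ hl₀
  rw [if_pos hl₀r] at hTcard
  obtain ⟨A, B, hAB, rfl⟩ := Finset.card_eq_two.1 hTcard
  obtain ⟨hcA, hA1, hAχ⟩ := hT A (by simp)
  obtain ⟨hcB, hB1, hBχ⟩ := hT B (by simp)
  have hXout : ∀ l ∈ moved s r, coef l₀ (X l) = 0 := by
    intro l hl
    have h := F.inner_Phi_Phi (moved_ne_one hl) hl₀
    have hne : l ≠ l₀ := fun h' => mem_moved.1 hl (h' ▸ hl₀r)
    rw [← hl₀r, if_neg hne, add_zero, add_zero] at h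
    have hfun : Phi l = (Chars.oneChar G : G → ℂ) + (χ : G → ℂ) - (X l : G → ℂ) := funext fun g => by
      rw [Pi.sub_apply, Pi.add_apply, (hX l hl).1, Chars.oneChar_apply]; ring
    rw [hfun, Chars.classInner_sub_left, Chars.classInner_add_left, Chars.Induced.classInner_comm_conj,
      Chars.Induced.classInner_comm_conj (χ : G → ℂ), Chars.Induced.classInner_comm_conj (X l : G → ℂ)] at h
    change conj (coef l₀ (Chars.oneChar G)) + conj (coef l₀ χ) - conj (coef l₀ (X l)) = 2 at h
    rw [F.coef_one hl₀, F.coef_chi hχ hl₀, _root_.map_one] at h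
    have h' : conj (coef l₀ (X l)) = 0 := by linear_combination -h
    simpa using h'
  have hX1 : ∀ l ∈ moved s r, X l ≠ Chars.oneChar G ∧ X l ≠ χ := by
    intro l hl
    refine ⟨fun h => ?_, fun h => ?_⟩
    · have := (hX l hl).2
      rw [h, Chars.charDegree_eq_of_map_one (n := 1) (by simp)] at this
      have := hp.out.two_le
      omega
    · have := (hX l hl).2
      rw [h, hχ.deg] at this
      omega
  have hTX : ∀ η ∈ ({A, B} : Finset (IrrCharacter G)), η ∉ Xs := by
    intro η hη hmem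
    obtain ⟨l, hl, rfl⟩ := Finset.mem_image.1 hmem
    have := hXout l hl
    rw [hc, Int.cast_eq_zero] at this
    rcases (hT _ hη).1 with h | h <;> omega
  -- coefficients of the others
  have hco0 : ∀ η, η ≠ Chars.oneChar G → η ≠ χ → η ∉ Xs → ∀ l ≠ l₀, coef l η = 0 := by
    intro η h1 h2 h3 l hl
    by_cases hlm : l ∈ moved s r
    · rw [coef_moved hX hlm, if_neg (Ne.symm h1), if_neg (Ne.symm h2),
        if_neg fun h => h3 (Finset.mem_image.2 ⟨l, hlm, h⟩)]
      norm_num
    · rw [mem_moved, not_not] at hlm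
      rw [(hfixed_eq l hlm).resolve_right hl, F.coef_trivial]
  -- values at the involution
  have hsq : ∀ l : Subgroup.zpowers s →* ℂˣ, (l zE : ℂ) * (l zE : ℂ) = 1 := fun l => by
    rw [← Units.val_mul, ← map_mul, ← pow_two, hz2, map_one, Units.val_one]
  have hvout : ∀ η, η ≠ Chars.oneChar G → η ≠ χ → η ∉ Xs →
      (η : G → ℂ) z = -(coef l₀ η * (l₀ zE : ℂ)) := by
    intro η h1 h2 h3
    have h := F.apply_eq_neg_sum η hzE1
    rw [Finset.sum_eq_single l₀ (fun l _ hl => by rw [hco0 η h1 h2 h3 l hl, zero_mul])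
      (fun h => absurd (Finset.mem_univ _) h)] at h
    exact h
  have hvX : ∀ l ∈ moved s r, (X l : G → ℂ) z = 2 * (l zE : ℂ) := by
    intro l hl
    have h := (hX l hl).1 zE
    rw [F.chi_apply_E hχ zE hzE1, F.Phi_mem, MonoidHom.pow_apply, ← map_pow, hzr] at h
    rw [show z = (zE : G) from rfl, h]
    ring
  have hnormT : ∀ η ∈ ({A, B} : Finset (IrrCharacter G)),
      (η : G → ℂ) z * conj ((η : G → ℂ) z) = 1 := by
    intro η hη
    obtain ⟨hcη, h1, h2⟩ := hT η hη
    rw [hvout η h1 h2 (hTX η hη), hc, map_neg, map_mul, map_intCast]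
    have hreal : conj ((l₀ zE : ℂ)) = (l₀ zE : ℂ) := by
      rcases mul_self_eq_one_iff.1 (hsq l₀) with h | h <;> simp [h]
    rw [hreal]
    rcases hcη with h | h <;> simp [h, hsq l₀]
  -- the count
  set f : IrrCharacter G → ℂ := fun η =>
    (η : G → ℂ) u₀ * ((η : G → ℂ) z * conj ((η : G → ℂ) z)) / (η : G → ℂ) 1 with hf
  have hfsum : ∑ η, f η = 1 + (Xs.card : ℂ) * (4 / ((p : ℂ) + 1)) +
      ((A : G → ℂ) u₀ / (A : G → ℂ) 1 + (B : G → ℂ) u₀ / (B : G → ℂ) 1) := by
    set big := insert (Chars.oneChar G) (Xs ∪ {A, B}) with hbig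
    have h1 : ∑ η, f η = ∑ η ∈ big, f η := by
      symm
      refine Finset.sum_subset (Finset.subset_univ _) fun η _ hη => ?_
      simp only [hbig, Finset.mem_insert, Finset.mem_union, Finset.mem_singleton, not_or] at hη
      obtain ⟨h1, h2, h3, h4⟩ := hη
      by_cases hηχ : η = χ
      · rw [hf, hηχ]
        simp [F.chi_singular hχ (g := u₀) (by rw [F.hu])]
      · have : (η : G → ℂ) z = 0 := by
          rw [hvout η h1 hηχ h2, hc, hout η h1 hηχ (by simp [h3, h4])]
          simp
        simp [hf, this]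
    have hd1 : Chars.oneChar G ∉ Xs ∪ {A, B} := by
      simp only [Finset.mem_union, Finset.mem_insert, Finset.mem_singleton, not_or]
      refine ⟨fun h => ?_, hA1.symm, hB1.symm⟩
      obtain ⟨l, hl, h'⟩ := Finset.mem_image.1 h
      exact (hX1 l hl).1 h'
    have hd2 : Disjoint Xs {A, B} := Finset.disjoint_right.2 hTX
    rw [h1, hbig, Finset.sum_insert hd1, Finset.sum_union hd2, Finset.sum_pair hAB, ← add_assoc]
    congr 1
    · congr 1
      · simp [hf]
      · rw [Finset.sum_congr rfl (g := fun _ => 4 / ((p : ℂ) + 1)) fun η hη => ?_, Finset.sum_const,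
          nsmul_eq_mul]
        obtain ⟨l, hl, rfl⟩ := Finset.mem_image.1 hη
        have hd : (X l : G → ℂ) 1 = (p : ℂ) + 1 := by
          rw [← Chars.coe_charDegree, (hX l hl).2, Nat.cast_add, Nat.cast_one]
        have hu1 := F.X_apply_upow hχ hX hl (g := u₀) (by rw [F.hu])
        have hreal : conj ((l zE : ℂ)) = (l zE : ℂ) := by
          rcases mul_self_eq_one_iff.1 (hsq l) with h | h <;> simp [h]
        show (X l : G → ℂ) u₀ * ((X l : G → ℂ) z * conj ((X l : G → ℂ) z)) / (X l : G → ℂ) 1 = _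
        rw [hu1, hvX l hl, hd, map_mul, hreal, map_ofNat]
        congr 1
        linear_combination 4 * hsq l
    · simp only [hf, hnormT A (by simp), hnormT B (by simp), mul_one]
  obtain ⟨k, hk, hn, hcard⟩ := F.exists_count
  have heq : (1 + (k : ℂ) * p) * (1 + (Xs.card : ℂ) * (4 / ((p : ℂ) + 1)) +
      ((A : G → ℂ) u₀ / (A : G → ℂ) 1 + (B : G → ℂ) u₀ / (B : G → ℂ) 1)) = 4 * e := by
    have h := F.sum_eq_count he
    rw [← hz] at h
    rw [show (∑ η : IrrCharacter G, (η : G → ℂ) u₀ * ((η : G → ℂ) z *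
      conj ((η : G → ℂ) z)) / (η : G → ℂ) 1) = ∑ η, f η from rfl, hfsum, hcard] at h
    push_cast at h
    have hpe : (p : ℂ) * e ≠ 0 := mul_ne_zero (Nat.cast_ne_zero.2 hp.out.ne_zero)
      (Nat.cast_ne_zero.2 he0.ne')
    exact mul_left_cancel₀ hpe (by linear_combination h)
  -- rationality
  have h2G : 2 ∣ Nat.card G := by
    rw [hcard]
    exact (he.mul_left p).mul_right _
  have hl₀2 : l₀ ^ 2 = 1 := hom_ext_gen (by
    rw [MonoidHom.pow_apply, F.sq_of_fixed hl₀r, MonoidHom.one_apply])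
  have hl₀k : ∀ {j : ℕ}, j.Coprime (Nat.card G) → l₀ ^ j = l₀ := by
    intro j hj
    obtain ⟨i, rfl⟩ : Odd j := by
      rw [← Nat.not_even_iff_odd, even_iff_two_dvd]
      intro h
      have h2 := Nat.dvd_gcd h h2G
      rw [hj.gcd_eq_one] at h2
      norm_num at h2
    exact hom_ext_gen (by rw [MonoidHom.pow_apply, pow_succ, pow_mul, F.sq_of_fixed hl₀r, one_pow, one_mul])
  have hstable : ∀ {j : ℕ} (hj : j.Coprime (Nat.card G)), ∀ η ∈ ({A, B} : Finset (IrrCharacter G)),
      Blocks.Orth.powIrr hj η ∈ ({A, B} : Finset (IrrCharacter G)) ∧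
        c (Blocks.Orth.powIrr hj η) = c η := by
    intro j hj η hη
    obtain ⟨hcη, h1, h2⟩ := hT η hη
    have hcc : c (Blocks.Orth.powIrr hj η) = c η := by
      refine Int.cast_injective (α := ℂ) ?_
      rw [← hc, ← hc, ← coef_powIrr hj l₀ η, hl₀k hj]
    refine ⟨?_, hcc⟩
    by_contra hmem
    have hone : Blocks.Orth.powIrr hj η ≠ Chars.oneChar G := fun h => h1
      (Blocks.Orth.powIrr_injective hj (h.trans (Subtype.ext (funext fun g => by simp)).symm))
    have hchi : Blocks.Orth.powIrr hj η ≠ χ := fun h =>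
      h2 (Blocks.Orth.powIrr_injective hj (h.trans (hχ.powIrr_eq hj).symm))
    have := hout _ hone hchi hmem
    rcases hcη with h | h <;> omega
  have hsum1 : (c A : ℂ) * (A : G → ℂ) 1 + (c B : ℂ) * (B : G → ℂ) 1 = -((p : ℂ) + 1) := by
    have h := hΦ 1
    rw [Phi_one, Finset.sum_pair hAB, hχ.map_one] at h
    linear_combination -h
  have hsumu : (c A : ℂ) * (A : G → ℂ) u₀ + (c B : ℂ) * (B : G → ℂ) u₀ = -1 := by
    have h := hΦ u₀
    rw [F.Phi_singular l₀ (g := u₀) (by rw [F.hu]), Finset.sum_pair hAB,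
      F.chi_singular hχ (g := u₀) (by rw [F.hu]), add_zero] at h
    linear_combination -h
  have hKc : (Xs.card : ℂ) = ((e : ℂ) - 2) / 2 := by
    have h : (((2 * Xs.card + 2 : ℕ) : ℂ)) = (e : ℂ) := by rw [hK]
    push_cast at h
    linear_combination h / 2
  obtain ⟨m, hm⟩ := F.hem
  have hm' : 2 * m * e = p - 1 := by rw [hm]; ring
  have hm1 : 1 ≤ m := by
    rcases Nat.eq_zero_or_pos m with rfl | h
    · have := F.five_le; omega
    · exact h
  have hp1 : (p : ℂ) + 1 ≠ 0 := Nat.cast_add_one_ne_zero p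
  by_cases hswap : ∃ (j : ℕ) (hj : j.Coprime (Nat.card G)), Blocks.Orth.powIrr hj A ≠ A
  · obtain ⟨j, hj, hne⟩ := hswap
    obtain ⟨hmem, hcc⟩ := hstable hj A (by simp)
    have hB' : Blocks.Orth.powIrr hj A = B := by simpa [hne] using hmem
    rw [hB'] at hcc
    have hdeg : (B : G → ℂ) 1 = (A : G → ℂ) 1 := by
      rw [← hB', Blocks.Orth.powIrr_apply, one_pow]
    rw [hdeg, hcc] at hsum1
    rw [hcc] at hsumu
    have hcA1 : c A = -1 := by
      refine hcA.resolve_left fun h => ?_
      rw [h, Int.cast_one, one_mul, ← Chars.coe_charDegree] at hsum1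
      have h2 : ((charDegree (A : G → ℂ) + charDegree (A : G → ℂ) + (p + 1) : ℕ) : ℂ) = 0 := by
        push_cast; linear_combination hsum1
      have h3 : charDegree (A : G → ℂ) + charDegree (A : G → ℂ) + (p + 1) = 0 := by exact_mod_cast h2
      omega
    rw [hcA1] at hsum1 hsumu
    push_cast at hsum1 hsumu
    have hA2 : (A : G → ℂ) 1 = ((p : ℂ) + 1) / 2 := by linear_combination -hsum1 / 2
    rw [hdeg, ← add_div, show (A : G → ℂ) u₀ + (B : G → ℂ) u₀ = 1 by linear_combination -hsumu,
      hA2, hKc] at heq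
    have heq' : (1 + (k : ℂ) * p) * ((p : ℂ) + 2 * e - 1) = 4 * e * ((p : ℂ) + 1) := by
      have h : (1 + (k : ℂ) * p) * (((p : ℂ) + 2 * e - 1) / ((p : ℂ) + 1)) = 4 * e := by
        rw [← heq]
        congr 1
        field_simp
        ring
      rw [← mul_div_assoc, div_eq_iff hp1] at h
      exact h
    have hN : (1 + k * p) * (p + 2 * e - 1) = 4 * e * (p + 1) := by
      refine Nat.cast_injective (R := ℂ) ?_
      rw [Nat.cast_mul, Nat.cast_sub (by have := hp.out.two_le; omega)]
      push_cast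
      exact heq'
    obtain ⟨hk1, hpe⟩ := arith_swap hm' (by omega) hp.out.two_le he0 hk hN
    subst hk1
    exact (Blocks.OrderP.Perfect.recognise_psl (u₀ := u₀) (e := e)
      ⟨F.hu, F.hidx, F.perfect, hn, F.relIndex_centralizer⟩ F.hC hpe).2
  · push Not at hswap
    exfalso
    have hfixB : ∀ (j : ℕ) (hj : j.Coprime (Nat.card G)), Blocks.Orth.powIrr hj B = B := by
      intro j hj
      have := (hstable hj B (by simp)).1
      simp only [Finset.mem_insert, Finset.mem_singleton] at this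
      exact this.resolve_left fun h =>
        hAB.symm (Blocks.Orth.powIrr_injective hj (h.trans (hswap j hj).symm))
    -- the value at `u₀` of a rational character
    have hval : ∀ η : IrrCharacter G, (∀ (j : ℕ) (hj : j.Coprime (Nat.card G)),
        Blocks.Orth.powIrr hj η = η) → ∃ v : ℤ, (v = 0 ∨ v = 1 ∨ v = -1) ∧
          (η : G → ℂ) u₀ = v ∧ (p : ℤ) ∣ (charDegree (η : G → ℂ) : ℤ) - v := by
      intro η hη
      obtain ⟨w, hw, τ, hτ, hsum⟩ := Blocks.OrderP.exists_mult_sum_eq F.hu F.hidx ⊥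
        (by simp [hp.out.ne_one]) (fun y hy => by rw [Subgroup.mem_bot.1 hy]; exact Commute.one_right _)
        (fun n _ y hy => by rw [Subgroup.mem_bot.1 hy]; simp) s F.hsN
        ⟨1, one_mem _, 1, one_mem _, by rw [mul_one, F.toSetting.toLocal.hsp]⟩
        (fun n hn => by
          obtain ⟨j, -, x, hx, h⟩ := F.hgen n hn
          exact ⟨j, x, hx, 1, one_mem _, by rw [mul_one]; exact h⟩)
        {η} (Finset.singleton_nonempty η) (fun j hj φ hφ => by
          rw [Finset.mem_singleton] at hφ ⊢; rw [hφ, hη j hj])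
        (fun φ _ i _ y hy => by rw [Subgroup.mem_bot.1 hy, mul_one])
      obtain ⟨φ, hφ, hwφ⟩ := hw
      rw [Finset.mem_singleton] at hφ
      subst hφ
      have hui : ∀ i ∈ Finset.Ico 1 p, (w φ : ℂ) * (φ : G → ℂ) (u₀ ^ i) = τ := fun i hi => by
        simpa using hsum i hi
      have h1 := hui 1 (Finset.mem_Ico.2 ⟨le_rfl, hp.out.one_lt⟩)
      rw [pow_one] at h1
      have hwC : (w φ : ℂ) ≠ 0 := Nat.cast_ne_zero.2 hwφ
      have hw1 : τ ≠ 0 → w φ = 1 := by
        intro hτ0
        refine Nat.dvd_one.1 (Chars.dvd_of_isIntegral_div (a := 1) hwφ ?_)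
        have hint := Chars.isIntegral_apply (Chars.isCharacter_coe φ) u₀
        have e1 : (φ : G → ℂ) u₀ = (τ : ℂ) / w φ := by rw [eq_div_iff hwC, mul_comm, h1]
        rw [e1] at hint
        rcases hτ with h | h | h
        · exact absurd h hτ0
        · simpa [h] using hint
        · simpa [h, neg_div] using hint.neg
      have hall : ∀ i ∈ Finset.Ico 1 p, (φ : G → ℂ) (u₀ ^ i) = τ := fun i hi => by
        by_cases hτ0 : τ = 0
        · have h2 := hui i hi
          rw [hτ0, Int.cast_zero] at h2 ⊢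
          exact (mul_eq_zero.1 h2).resolve_left hwC
        · simpa [hw1 hτ0] using hui i hi
      refine ⟨τ, hτ, by simpa using hall 1 (Finset.mem_Ico.2 ⟨le_rfl, hp.out.one_lt⟩), ?_⟩
      haveI : Fintype (Subgroup.zpowers u₀) := Fintype.ofFinite _
      obtain ⟨q, hq⟩ := Blocks.exists_sum_subgroup_eq φ (Subgroup.zpowers u₀)
      rw [Nat.card_zpowers, F.hu, ← Finset.add_sum_erase _ _ (Finset.mem_univ (1 : Subgroup.zpowers u₀)),
        Finset.sum_congr rfl (fun (y : Subgroup.zpowers u₀) hy => show (φ : G → ℂ) y = τ by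
          obtain ⟨i, hip, hi⟩ := Blocks.OrderP.exists_pow_eq F.hu y.2
          rw [← hi]
          refine hall i (Finset.mem_Ico.2 ⟨Nat.pos_of_ne_zero fun h0 => ?_, hip⟩)
          exact Finset.ne_of_mem_erase hy (Subtype.ext (by rw [← hi, h0, pow_zero]; rfl))),
        Finset.sum_const, Finset.card_erase_of_mem (Finset.mem_univ _), Finset.card_univ,
        ← Nat.card_eq_fintype_card, Nat.card_zpowers, F.hu, OneMemClass.coe_one,
        ← Chars.coe_charDegree, nsmul_eq_mul, Nat.cast_sub hp.out.one_lt.le, Nat.cast_one] at hq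
      refine ⟨(q : ℤ) - τ, Int.cast_injective (α := ℂ) ?_⟩
      push_cast
      linear_combination hq
    obtain ⟨a, ha, hau, hamod⟩ := hval A hswap
    obtain ⟨b, hb, hbu, hbmod⟩ := hval B hfixB
    have hab : c A * a + c B * b = -1 := by
      refine Int.cast_injective (α := ℂ) ?_
      push_cast
      rw [← hau, ← hbu]
      exact hsumu
    rw [hau, hbu, ← Chars.coe_charDegree, ← Chars.coe_charDegree, hKc] at heq
    have key : ∀ (D : ℕ) (v : ℤ), 0 < D → (v = 1 ∨ v = -1) → (p : ℤ) ∣ (D : ℤ) - v →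
        (1 + (k : ℂ) * p) * (1 + ((e : ℂ) - 2) / 2 * (4 / ((p : ℂ) + 1)) + (v : ℂ) / D) = 4 * e →
        False := by
      intro D v hD hv hmod h
      have hD0 : (D : ℂ) ≠ 0 := Nat.cast_ne_zero.2 hD.ne'
      refine arith_fixed (p := p) (e := e) (k := k) (m := 2 * m) (A := D) (v := v) ?_ (by omega)
        (by omega) F.he2 hk hD hv hmod ?_
      · rw [← Nat.cast_mul, hm', Nat.cast_sub hp.out.one_lt.le, Nat.cast_one]
      · refine Int.cast_injective (α := ℂ) ?_
        push_cast
        rw [← h]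
        field_simp
        ring
    rcases ha with rfl | rfl | rfl <;> rcases hb with rfl | rfl | rfl <;>
      rcases hcA with hca | hca <;> rcases hcB with hcb | hcb <;>
      simp only [hca, hcb] at hab <;> norm_num at hab <;>
      first
        | exact key _ 1 (Chars.charDegree_pos A) (Or.inl rfl) hamod (by simpa using heq)
        | exact key _ (-1) (Chars.charDegree_pos A) (Or.inr rfl) hamod (by simpa using heq)
        | exact key _ 1 (Chars.charDegree_pos B) (Or.inl rfl) hbmod (by simpa using heq)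
        | exact key _ (-1) (Chars.charDegree_pos B) (Or.inr rfl) hbmod (by simpa using heq)

end CfsgLib.PrimeTI.Setting.Flip
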