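import Cfsg.Agent.Blocks.OrderP.Weight
import Mathlib.GroupTheory.Focal

/-!
# Simple groups with a TI complement in the normaliser of a self-centralising Sylow subgroup

`P = ⟨u⟩` has order `p`, `N(P) = P⟨s⟩`, and `E = ⟨s⟩` is TI with `|N(E)| = 2|E|`.  An element `t` of
`N(E) \ E` acts on `E` as the power `r`; simplicity gives that `r - 1` and `|E|` have no common
divisor apart from `1` and `2`.
-/

set_option autoImplicit false

namespace CfsgLib.PrimeTI

open Cfsg CfsgLib
open scoped commutatorElement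

universe u

variable {G : Type u} [Group G]

/-- The setting. -/
structure Setting (p e : ℕ) (u₀ s : G) : Prop where
  simple : IsSimpleGroup G
  perfect : commutator G = ⊤
  hu : orderOf u₀ = p
  hC : Subgroup.centralizer ({u₀} : Set G) = Subgroup.zpowers u₀
  hidx : ¬ p ∣ (Subgroup.zpowers u₀).index
  hs : orderOf s = e
  he2 : 2 ≤ e
  hem : 2 * e ∣ p - 1
  hsN : s ∈ Subgroup.normalizer (Subgroup.zpowers u₀ : Set G)
  hgen : ∀ n ∈ Subgroup.normalizer (Subgroup.zpowers u₀ : Set G),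
    ∃ k < e, ∃ x ∈ Subgroup.zpowers u₀, n = s ^ k * x
  hNE : Nat.card (Subgroup.normalizer (Subgroup.zpowers s : Set G)) = 2 * e
  hTI : ∀ g x : G, x ∈ Subgroup.zpowers s → x ≠ 1 → g * x * g⁻¹ ∈ Subgroup.zpowers s →
    g ∈ Subgroup.normalizer (Subgroup.zpowers s : Set G)

variable {p e : ℕ} [hp : Fact p.Prime] {u₀ s : G}

namespace Setting

theorem five_le (S : Setting p e u₀ s) : 2 * e + 1 ≤ p := by
  have h1 := Nat.le_of_dvd (by have := hp.out.two_le; omega) S.hem
  have h2 := hp.out.two_le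
  omega

theorem hediv (S : Setting p e u₀ s) : e ∣ p - 1 := (dvd_mul_left e 2).trans S.hem

theorem not_dvd (S : Setting p e u₀ s) : ¬ p ∣ 2 * e := fun h => by
  have := Nat.le_of_dvd (by have := S.he2; omega) h
  have := S.five_le
  omega

variable [Fintype G]

theorem mem_E_iff (S : Setting p e u₀ s) {x : G} :
    x ∈ Subgroup.zpowers s ↔ ∃ k < e, s ^ k = x := by
  constructor
  · intro hx
    obtain ⟨k, rfl⟩ : ∃ k, s ^ k = x := mem_powers_iff_mem_zpowers.2 hx
    exact ⟨k % e, Nat.mod_lt _ (by have := S.he2; omega), by rw [← S.hs, pow_mod_orderOf]⟩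
  · rintro ⟨k, -, rfl⟩
    exact pow_mem (Subgroup.mem_zpowers s) k

/-- `P` meets `N(E)` trivially. -/
theorem eq_one_of_mem (S : Setting p e u₀ s) {x : G} (hx : x ∈ Subgroup.zpowers u₀)
    (hx' : x ∈ Subgroup.normalizer (Subgroup.zpowers s : Set G)) : x = 1 := by
  have h1 : orderOf x ∣ p := S.hu ▸ Nat.card_zpowers u₀ ▸ Subgroup.orderOf_dvd_natCard _ hx
  have h2 : orderOf x ∣ 2 * e := S.hNE ▸ Subgroup.orderOf_dvd_natCard _ hx'
  rcases (Nat.dvd_prime hp.out).1 h1 with h | h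
  · exact orderOf_eq_one_iff.1 h
  · exact absurd (h ▸ h2) S.not_dvd

theorem le_normalizer_E : Subgroup.zpowers s ≤ Subgroup.normalizer (Subgroup.zpowers s : Set G) :=
  Subgroup.le_normalizer

theorem toLocal (S : Setting p e u₀ s) : Blocks.OrderP.Weight.Local p e u₀ s where
  hu := S.hu
  hs := S.hs ▸ pow_orderOf_eq_one s
  hediv := S.hediv
  hsN := S.hsN
  hgen := S.hgen
  hinj k hk l hl h := by
    have h1 : s ^ k = s ^ l := inv_mul_eq_one.1 (S.eq_one_of_mem h
      (le_normalizer_E (mul_mem (inv_mem (pow_mem (Subgroup.mem_zpowers s) k))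
        (pow_mem (Subgroup.mem_zpowers s) l))))
    exact pow_injOn_Iio_orderOf (S.hs.symm ▸ hk) (S.hs.symm ▸ hl) h1

theorem centralizer_le (S : Setting p e u₀ s) {x : G} (hx : x ∈ Subgroup.zpowers s) (hx1 : x ≠ 1) :
    Subgroup.centralizer ({x} : Set G) ≤ Subgroup.normalizer (Subgroup.zpowers s : Set G) := by
  intro g hg
  refine S.hTI g x hx hx1 ?_
  rw [Subgroup.mem_centralizer_singleton_iff] at hg
  rwa [hg, mul_inv_cancel_right]

/-- The coset `xP` of a nontrivial element of `E` consists of conjugates of `x` under `P`. -/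
theorem exists_conj (S : Setting p e u₀ s) {x : G} (hx : x ∈ Subgroup.zpowers s) (hx1 : x ≠ 1)
    {v : G} (hv : v ∈ Subgroup.zpowers u₀) : ∃ w ∈ Subgroup.zpowers u₀, w * x * w⁻¹ = x * v := by
  classical
  have hxN : x ∈ Subgroup.normalizer (Subgroup.zpowers u₀ : Set G) :=
    Subgroup.zpowers_le.2 S.hsN hx
  let f : Subgroup.zpowers u₀ → Subgroup.zpowers u₀ := fun w =>
    ⟨x⁻¹ * ((w : G) * x * (w : G)⁻¹), by
      rw [show x⁻¹ * ((w : G) * x * (w : G)⁻¹) = x⁻¹ * w * x * (w : G)⁻¹ by group]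
      exact mul_mem ((Subgroup.mem_set_normalizer_iff''.1 hxN _).1 w.2) (inv_mem w.2)⟩
  have hf : Function.Injective f := by
    intro a b hab
    have h1 : (a : G) * x * (a : G)⁻¹ = b * x * (b : G)⁻¹ :=
      mul_left_cancel (congrArg Subtype.val hab)
    refine Subtype.ext (inv_mul_eq_one.1 (S.eq_one_of_mem (mul_mem (inv_mem a.2) b.2)
      (S.centralizer_le hx hx1 ?_)))
    rw [Subgroup.mem_centralizer_singleton_iff]
    calc (a : G)⁻¹ * b * x = (a : G)⁻¹ * (b * x * (b : G)⁻¹) * b := by group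
      _ = _ := by rw [← h1]; group
  obtain ⟨w, hw⟩ := (Finite.injective_iff_surjective.1 hf) ⟨v, hv⟩
  exact ⟨w, w.2, by rw [← show x⁻¹ * ((w : G) * x * (w : G)⁻¹) = v from congrArg Subtype.val hw,
    mul_inv_cancel_left]⟩

/-- An element of `N(E) \ E` and the power it induces. -/
structure Flip (p e : ℕ) (u₀ s t : G) (r : ℕ) : Prop extends Setting p e u₀ s where
  ht : t ∈ Subgroup.normalizer (Subgroup.zpowers s : Set G)
  htE : t ∉ Subgroup.zpowers s
  hts : t * s * t⁻¹ = s ^ r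

theorem exists_flip (S : Setting p e u₀ s) : ∃ t r, Flip p e u₀ s t r := by
  obtain ⟨t, ht, htE⟩ : ∃ t ∈ Subgroup.normalizer (Subgroup.zpowers s : Set G),
      t ∉ Subgroup.zpowers s := by
    by_contra hcon
    push Not at hcon
    have := Subgroup.card_le_of_le (show Subgroup.normalizer (Subgroup.zpowers s : Set G) ≤
      Subgroup.zpowers s from hcon)
    rw [S.hNE, Nat.card_zpowers, S.hs] at this
    have := S.he2
    omega
  obtain ⟨r, -, hr⟩ := S.mem_E_iff.1 ((Subgroup.mem_set_normalizer_iff.1 ht s).1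
    (Subgroup.mem_zpowers s))
  exact ⟨t, r, { toSetting := S, ht := ht, htE := htE, hts := hr.symm }⟩

end Setting

open Setting (le_normalizer_E)

namespace Setting.Flip

variable [Fintype G] {t : G} {r : ℕ}

theorem conj_E (F : Flip p e u₀ s t r) {x : G} (hx : x ∈ Subgroup.zpowers s) :
    t * x * t⁻¹ = x ^ r := by
  obtain ⟨k, -, rfl⟩ := F.mem_E_iff.1 hx
  rw [← conj_pow, F.hts, ← pow_mul, ← pow_mul, mul_comm]

theorem relIndex_eq (F : Flip p e u₀ s t r) :
    (Subgroup.zpowers s).relIndex (Subgroup.normalizer (Subgroup.zpowers s : Set G)) = 2 := by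
  have h := Subgroup.card_mul_index ((Subgroup.zpowers s).subgroupOf
    (Subgroup.normalizer (Subgroup.zpowers s : Set G)))
  rw [Nat.card_congr (Subgroup.subgroupOfEquivOfLe le_normalizer_E).toEquiv, Nat.card_zpowers,
    F.hs, F.hNE, mul_comm 2] at h
  exact Nat.eq_of_mul_eq_mul_left (by have := F.he2; omega) h

theorem mul_mem_iff (F : Flip p e u₀ s t r) {a b : G}
    (ha : a ∈ Subgroup.normalizer (Subgroup.zpowers s : Set G))
    (hb : b ∈ Subgroup.normalizer (Subgroup.zpowers s : Set G)) :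
    a * b ∈ Subgroup.zpowers s ↔ (a ∈ Subgroup.zpowers s ↔ b ∈ Subgroup.zpowers s) := by
  have h := Subgroup.mul_mem_iff_of_index_two (G := Subgroup.normalizer
    (Subgroup.zpowers s : Set G)) (H := (Subgroup.zpowers s).subgroupOf _) F.relIndex_eq
    (a := ⟨a, ha⟩) (b := ⟨b, hb⟩)
  simpa [Subgroup.mem_subgroupOf] using h

theorem sq_mem (F : Flip p e u₀ s t r) {a : G}
    (ha : a ∈ Subgroup.normalizer (Subgroup.zpowers s : Set G)) : a * a ∈ Subgroup.zpowers s :=
  (F.mul_mem_iff ha ha).2 Iff.rfl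

theorem mem_cases (F : Flip p e u₀ s t r) {g : G}
    (hg : g ∈ Subgroup.normalizer (Subgroup.zpowers s : Set G)) :
    g ∈ Subgroup.zpowers s ∨ ∃ y ∈ Subgroup.zpowers s, g = t * y := by
  by_cases h : g ∈ Subgroup.zpowers s
  · exact Or.inl h
  refine Or.inr ⟨t⁻¹ * g, (F.mul_mem_iff (inv_mem F.ht) hg).2
    (iff_of_false (fun hh => F.htE (inv_mem_iff.1 hh)) h), by rw [mul_inv_cancel_left]⟩

theorem E_comm {x y : G} (hx : x ∈ Subgroup.zpowers s) (hy : y ∈ Subgroup.zpowers s) :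
    x * y = y * x := by
  obtain ⟨i, rfl⟩ := Subgroup.mem_zpowers_iff.1 hx
  obtain ⟨j, rfl⟩ := Subgroup.mem_zpowers_iff.1 hy
  exact (Commute.refl s).zpow_zpow i j

theorem conj_outside (F : Flip p e u₀ s t r) {g x : G}
    (hg : g ∈ Subgroup.normalizer (Subgroup.zpowers s : Set G)) (hgE : g ∉ Subgroup.zpowers s)
    (hx : x ∈ Subgroup.zpowers s) : g * x * g⁻¹ = x ^ r := by
  obtain ⟨y, hy, rfl⟩ := (F.mem_cases hg).resolve_left hgE
  rw [show t * y * x * (t * y)⁻¹ = t * (y * x * y⁻¹) * t⁻¹ by group, E_comm hy hx,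
    mul_inv_cancel_right, F.conj_E hx]

theorem pow_sq (F : Flip p e u₀ s t r) {x : G} (hx : x ∈ Subgroup.zpowers s) :
    x ^ (r * r) = x := by
  have h1 : t * t ∈ Subgroup.zpowers s := F.sq_mem F.ht
  rw [pow_mul, ← F.conj_E (pow_mem hx r), ← F.conj_E hx,
    show t * (t * x * t⁻¹) * t⁻¹ = t * t * x * (t * t)⁻¹ by group, E_comm h1 hx,
    mul_inv_cancel_right]

theorem modEq_sq (F : Flip p e u₀ s t r) : r * r ≡ 1 [MOD e] := by
  have h := F.pow_sq (Subgroup.mem_zpowers s)
  conv_rhs at h => rw [← pow_one s]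
  rw [pow_eq_pow_iff_modEq, F.hs] at h
  exact h

/-- No odd prime divisor of `e` has `r` congruent to one. -/
theorem not_odd_prime (F : Flip p e u₀ s t r) {l : ℕ} (hl : l.Prime) (hl2 : l ≠ 2) (hle : l ∣ e)
    (hr : r ≡ 1 [MOD l]) : False := by
  classical
  haveI := Fact.mk hl
  have he0 : e ≠ 0 := by have := F.he2; omega
  obtain ⟨b, c, hc, hec⟩ := Nat.exists_eq_pow_mul_and_not_dvd he0 l hl.ne_one
  have hb : b ≠ 0 := by rintro rfl; rw [pow_zero, one_mul] at hec; exact hc (hec ▸ hle)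
  set y := s ^ c with hy
  have hyE : y ∈ Subgroup.zpowers s := pow_mem (Subgroup.mem_zpowers s) c
  have hyo : orderOf y = l ^ b := by
    rw [hy, orderOf_pow' _ (by rintro rfl; exact hc (dvd_zero l)), F.hs, hec,
      Nat.gcd_mul_left_left, Nat.mul_div_cancel _ (Nat.pos_of_ne_zero
        (by rintro rfl; exact hc (dvd_zero l)))]
  have hy1 : y ≠ 1 := by
    intro h
    rw [h, orderOf_one] at hyo
    exact (one_lt_pow₀ hl.one_lt hb).ne hyo
  -- the involutory action is trivial on `y`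
  have hty : t * y * t⁻¹ = y := by
    rw [F.conj_E hyE]
    conv_rhs => rw [← pow_one y]
    rw [pow_eq_pow_iff_modEq, hyo, Nat.modEq_iff_dvd]
    have h1 : ((l ^ b : ℕ) : ℤ) ∣ (1 - (r : ℤ)) * (1 + r) := by
      have h2 := Nat.modEq_iff_dvd.1 (F.modEq_sq.of_dvd (hec ▸ dvd_mul_right (l ^ b) c))
      rw [show (1 - (r : ℤ)) * (1 + r) = 1 - r * r by ring]
      exact_mod_cast h2
    have hcop : IsCoprime ((l : ℤ) ^ b) (1 + (r : ℤ)) := by
      refine IsCoprime.pow_left ((Nat.prime_iff_prime_int.1 hl).coprime_iff_not_dvd.2 fun hd => ?_)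
      have h3 : (l : ℤ) ∣ 2 := by
        have h4 := hd.add (Nat.modEq_iff_dvd.1 hr)
        rw [show (1 + (r : ℤ)) + (((1 : ℕ) : ℤ) - r) = 2 by push_cast; ring] at h4
        exact h4
      exact hl2 ((Nat.prime_dvd_prime_iff_eq hl Nat.prime_two).1 (by exact_mod_cast h3))
    push_cast at h1 ⊢
    exact hcop.dvd_of_dvd_mul_right h1
  have hle' : Subgroup.normalizer (Subgroup.zpowers y : Set G) ≤
      Subgroup.normalizer (Subgroup.zpowers s : Set G) := fun g hg =>
    F.hTI g y hyE hy1 (Subgroup.zpowers_le.2 hyE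
      ((Subgroup.mem_set_normalizer_iff.1 hg y).1 (Subgroup.mem_zpowers y)))
  have hcent : Subgroup.normalizer (Subgroup.zpowers y : Set G) ≤
      Subgroup.centralizer ({y} : Set G) := by
    intro g hg
    rw [Subgroup.mem_centralizer_singleton_iff]
    rcases F.mem_cases (hle' hg) with h | ⟨w, hw, rfl⟩
    · exact E_comm h hyE
    · rw [mul_assoc, E_comm hw hyE, ← mul_assoc, mul_inv_eq_iff_eq_mul.1 hty, mul_assoc]
  have hgrp : IsPGroup l (Subgroup.zpowers y) :=
    IsPGroup.of_card (n := b) (by rw [Nat.card_zpowers, hyo])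
  have hnd : ¬ l ∣ (Subgroup.zpowers y).index := by
    intro hd
    have hpow : l ^ (b + 1) ∣ Nat.card G := by
      rw [← Subgroup.card_mul_index (Subgroup.zpowers y), Nat.card_zpowers, hyo, pow_succ]
      exact mul_dvd_mul_left _ hd
    have h1 := Sylow.prime_dvd_card_quotient_normalizer hpow
      (by rw [Nat.card_zpowers, hyo] : Nat.card (Subgroup.zpowers y) = l ^ b)
    have h3 : l ^ (b + 1) ∣ 2 * e := by
      rw [← F.hNE]
      refine dvd_trans ?_ (Subgroup.card_dvd_of_le hle')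
      rw [← Subgroup.card_mul_index ((Subgroup.zpowers y).subgroupOf
        (Subgroup.normalizer (Subgroup.zpowers y : Set G))),
        Nat.card_congr (Subgroup.subgroupOfEquivOfLe Subgroup.le_normalizer).toEquiv,
        Nat.card_zpowers, hyo, pow_succ, Subgroup.index_eq_card]
      exact mul_dvd_mul_left _ h1
    rw [hec, pow_succ, mul_left_comm] at h3
    have h4 := (Nat.mul_dvd_mul_iff_left (pow_pos hl.pos b)).1 h3
    rcases hl.dvd_mul.1 h4 with h5 | h5
    · exact hl2 ((Nat.prime_dvd_prime_iff_eq hl Nat.prime_two).1 h5)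
    · exact hc h5
  let R : Sylow l G := hgrp.toSylow hnd
  have hR : (R : Subgroup G) = Subgroup.zpowers y := rfl
  have hRle : Subgroup.normalizer (R : Set G) ≤ Subgroup.centralizer (R : Set G) := by
    show Subgroup.normalizer (Subgroup.zpowers y : Set G) ≤
      Subgroup.centralizer (Subgroup.zpowers y : Set G)
    intro g hg x hx
    obtain ⟨i, rfl⟩ := Subgroup.mem_zpowers_iff.1 hx
    exact ((show Commute g y from Subgroup.mem_centralizer_singleton_iff.1 (hcent hg)).zpow_right i).symm.eq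
  have hK := MonoidHom.ker_transferSylow_isComplement' R hRle
  haveI := F.simple
  rcases (MonoidHom.normal_ker (MonoidHom.transferSylow R hRle)).eq_bot_or_eq_top with h | h
  · rw [h, Subgroup.isComplement'_bot_left, hR] at hK
    have hbot : commutator G = ⊥ := by
      rw [commutator_def, ← hK, Subgroup.commutator_eq_bot_iff_le_centralizer]
      intro a ha b hb
      obtain ⟨i, rfl⟩ := Subgroup.mem_zpowers_iff.1 ha
      obtain ⟨j, rfl⟩ := Subgroup.mem_zpowers_iff.1 hb
      exact (Commute.refl y).zpow_zpow j i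
    exact hy1 ((Subgroup.mem_bot).1 (hbot ▸ F.perfect ▸ Subgroup.mem_top y))
  · rw [h, Subgroup.isComplement'_top_left, hR, Subgroup.zpowers_eq_bot] at hK
    exact hy1 hK

theorem pow_half_sq (F : Flip p e u₀ s t r) (he : 2 ∣ e) : (s ^ (e / 2)) ^ 2 = 1 := by
  rw [← pow_mul, Nat.div_mul_cancel he, ← F.hs, pow_orderOf_eq_one]

theorem pow_half_ne (F : Flip p e u₀ s t r) : s ^ (e / 2) ≠ 1 := by
  intro h
  have h1 := Nat.le_of_dvd (by have := F.he2; omega) (orderOf_dvd_of_pow_eq_one h)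
  rw [F.hs] at h1
  have := F.he2
  omega

/-- The only involution of `E`. -/
theorem eq_half (F : Flip p e u₀ s t r) {x : G} (hx : x ∈ Subgroup.zpowers s) (hx2 : x * x = 1)
    (hx1 : x ≠ 1) : x = s ^ (e / 2) := by
  obtain ⟨k, hk, rfl⟩ := F.mem_E_iff.1 hx
  rw [← pow_add] at hx2
  obtain ⟨j, hj⟩ := F.hs ▸ orderOf_dvd_of_pow_eq_one hx2
  have hk0 : k ≠ 0 := fun h => hx1 (h ▸ pow_zero s)
  have hj1 : j = 1 := by
    rcases Nat.lt_trichotomy j 1 with h | h | h
    · rw [Nat.lt_one_iff.1 h, mul_zero] at hj; omega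
    · exact h
    · have : e * 2 ≤ e * j := Nat.mul_le_mul_left _ h
      omega
  subst hj1
  congr 1
  omega

theorem conj_half (F : Flip p e u₀ s t r) (he : 2 ∣ e) {g : G}
    (hg : g ∈ Subgroup.normalizer (Subgroup.zpowers s : Set G)) :
    g * s ^ (e / 2) * g⁻¹ = s ^ (e / 2) := by
  refine F.eq_half ((Subgroup.mem_set_normalizer_iff.1 hg _).1
    (pow_mem (Subgroup.mem_zpowers s) _)) ?_ fun h => F.pow_half_ne (conj_eq_one_iff.1 h)
  rw [show g * s ^ (e / 2) * g⁻¹ * (g * s ^ (e / 2) * g⁻¹) = g * (s ^ (e / 2)) ^ 2 * g⁻¹ by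
    rw [pow_two]; group, F.pow_half_sq he, mul_one, mul_inv_cancel]

/-- `r` is not congruent to one mod `4` when `4` divides `e`. -/
theorem not_four (F : Flip p e u₀ s t r) (he4 : 4 ∣ e) (hr : r ≡ 1 [MOD 4]) : False := by
  classical
  set N := Subgroup.normalizer (Subgroup.zpowers s : Set G) with hN
  have he2 : 2 ∣ e := (show 2 ∣ 4 by norm_num).trans he4
  set z := s ^ (e / 2) with hz
  set w := s ^ (e / 4) with hw
  have hwz : w * w = z := by rw [hw, hz, ← pow_add]; congr 1; omega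
  have hwE : w ∈ Subgroup.zpowers s := pow_mem (Subgroup.mem_zpowers s) _
  have hwN : w ∈ N := le_normalizer_E hwE
  have hw4 : IsPGroup 2 (Subgroup.zpowers (⟨w, hwN⟩ : N)) := by
    have hpow : (⟨w, hwN⟩ : N) ^ 2 ^ 2 = 1 := Subtype.ext (by
      show w ^ 2 ^ 2 = 1
      rw [show (2 : ℕ) ^ 2 = 2 * 2 by norm_num, pow_mul, pow_two w, hwz, F.pow_half_sq he2])
    obtain ⟨k, -, hk⟩ := (Nat.dvd_prime_pow Nat.prime_two).1 (orderOf_dvd_of_pow_eq_one hpow)
    exact IsPGroup.of_card (n := k) (by rw [Nat.card_zpowers, hk])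
  obtain ⟨Q, hQ⟩ := hw4.exists_le_sylow
  set S := (Q : Subgroup N).map N.subtype with hS
  have hSN : S ≤ N := Subgroup.map_subtype_le _
  have hwS : w ∈ S := ⟨⟨w, hwN⟩, hQ (Subgroup.mem_zpowers _), rfl⟩
  have hS2 : IsPGroup 2 S := Q.2.map _
  -- squares and the normaliser
  have hnorm : Subgroup.normalizer (S : Set G) ≤ N := by
    intro g hg
    refine F.hTI g z (pow_mem (Subgroup.mem_zpowers s) _) F.pow_half_ne ?_
    rw [← hwz, show g * (w * w) * g⁻¹ = (g * w * g⁻¹) * (g * w * g⁻¹) by group]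
    exact F.sq_mem (hSN ((Subgroup.mem_set_normalizer_iff.1 hg w).1 hwS))
  obtain ⟨n, hn⟩ := hS2.exists_card_eq
  have hnd : ¬ 2 ∣ S.index := by
    intro hd
    have hpow : 2 ^ (n + 1) ∣ Nat.card G := by
      rw [← Subgroup.card_mul_index S, hn, pow_succ]; exact mul_dvd_mul_left _ hd
    have h1 := Sylow.prime_dvd_card_quotient_normalizer hpow hn
    have h2 : 2 ∣ S.relIndex N := by
      refine dvd_trans ?_ (dvd_of_mul_right_eq _ (Subgroup.relIndex_mul_relIndex S
        (Subgroup.normalizer (S : Set G)) N Subgroup.le_normalizer hnorm))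
      rw [Subgroup.relIndex, Subgroup.index_eq_card]
      exact h1
    rw [Subgroup.relIndex, show S.subgroupOf N = (Q : Subgroup N) from
      Subgroup.comap_map_eq_self_of_injective N.subtype_injective _] at h2
    exact Q.not_dvd_index h2
  let P : Sylow 2 G := hS2.toSylow hnd
  have hfoc : Subgroup.focalSubgroup (P : Subgroup G) = S := by
    rw [← Subgroup.commutator_inf_eq_focalSubgroup, F.perfect, top_inf_eq]
    rfl
  -- elements killed by `r + 1`
  have htwo : ∀ v ∈ S, v ^ (r + 1) = 1 → v * v = 1 := by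
    intro v hv h
    obtain ⟨k, hk⟩ := hS2 ⟨v, hv⟩
    have hk' : v ^ 2 ^ k = 1 := congrArg Subtype.val hk
    obtain ⟨j, -, hj⟩ := (Nat.dvd_prime_pow Nat.prime_two).1 (orderOf_dvd_of_pow_eq_one hk')
    have h2 : 2 ^ j ∣ r + 1 := hj ▸ orderOf_dvd_of_pow_eq_one h
    have hj1 : j ≤ 1 := by
      by_contra hlt
      have h4 : 2 ^ 2 ∣ r + 1 := (pow_dvd_pow 2 (by omega : 2 ≤ j)).trans h2
      have : r % 4 = 1 := hr
      omega
    rw [← pow_two]
    exact orderOf_dvd_iff_pow_eq_one.1 (hj ▸ (pow_dvd_pow 2 hj1).trans (by norm_num))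
  have hzc : ∀ a ∈ S, a * z = z * a := fun a ha => by
    conv_rhs => rw [hz, ← F.conj_half he2 (hSN ha), inv_mul_cancel_right]
  have hsq : ∀ a ∈ Subgroup.zpowers s, a * a = 1 → a = 1 ∨ a = z := fun a ha h2 =>
    or_iff_not_imp_left.2 (F.eq_half ha h2)
  have hprod : ∀ a ∈ S, a * a = 1 → ∀ b ∈ S, b * b = 1 → a * b * (a * b) = 1 := by
    intro a ha ha2 b hb hb2
    by_cases haE : a ∈ Subgroup.zpowers s
    · rcases hsq a haE ha2 with rfl | rfl
      · simpa using hb2
      · calc z * b * (z * b) = z * (b * z) * b := by group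
          _ = (z * z) * (b * b) := by rw [hzc b hb]; group
          _ = 1 := by rw [hb2, ha2, mul_one]
    by_cases hbE : b ∈ Subgroup.zpowers s
    · rcases hsq b hbE hb2 with rfl | rfl
      · simpa using ha2
      · calc a * z * (a * z) = a * (z * a) * z := by group
          _ = (a * a) * (z * z) := by rw [← hzc a ha]; group
          _ = 1 := by rw [hb2, ha2, mul_one]
    have hab : a * b ∈ Subgroup.zpowers s :=
      (F.mul_mem_iff (hSN ha) (hSN hb)).2 (iff_of_false haE hbE)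
    refine htwo _ (mul_mem ha hb) ?_
    have hainv : a⁻¹ = a := inv_eq_of_mul_eq_one_right ha2
    have hbinv : b⁻¹ = b := inv_eq_of_mul_eq_one_right hb2
    rw [pow_succ, ← F.conj_outside (hSN ha) haE hab]
    calc a * (a * b) * a⁻¹ * (a * b) = (a * a) * b * (a⁻¹ * a) * b := by group
      _ = 1 := by rw [ha2, one_mul, inv_mul_cancel, mul_one, hb2]
  let M : Subgroup G :=
    { carrier := {a | a ∈ S ∧ a * a = 1}
      mul_mem' := fun ha hb => ⟨mul_mem ha.1 hb.1, hprod _ ha.1 ha.2 _ hb.1 hb.2⟩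
      one_mem' := ⟨one_mem S, one_mul 1⟩
      inv_mem' := fun {a} ha => ⟨inv_mem ha.1, by rw [← mul_inv_rev, ha.2, inv_one]⟩ }
  have hle : Subgroup.focalSubgroup (P : Subgroup G) ≤ M := by
    rw [Subgroup.focalSubgroup_def, Subgroup.closure_le]
    rintro _ ⟨hcS, x, hxS, g, rfl⟩
    have hxS : x ∈ S := hxS
    have hcS : ⁅x, g⁆ ∈ S := hcS
    have hy : g * x⁻¹ * g⁻¹ ∈ S := by
      have := mul_mem (inv_mem hxS) hcS
      rwa [commutatorElement_def, show x⁻¹ * (x * g * x⁻¹ * g⁻¹) = g * x⁻¹ * g⁻¹ by group] at this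
    have hc : ⁅x, g⁆ = x * (g * x⁻¹ * g⁻¹) := by rw [commutatorElement_def]; group
    by_cases hx2 : x * x = 1
    · rw [hc]
      refine M.mul_mem ⟨hxS, hx2⟩ ⟨hy, ?_⟩
      rw [show g * x⁻¹ * g⁻¹ * (g * x⁻¹ * g⁻¹) = g * (x * x)⁻¹ * g⁻¹ by group, hx2, inv_one,
        mul_one, mul_inv_cancel]
    refine ⟨hcS, htwo _ hcS ?_⟩
    have hgN : g ∈ N := F.hTI g (x * x)⁻¹ (inv_mem (F.sq_mem (hSN hxS))) (inv_ne_one.2 hx2) (by
      rw [show g * (x * x)⁻¹ * g⁻¹ = g * x⁻¹ * g⁻¹ * (g * x⁻¹ * g⁻¹) by group]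
      exact F.sq_mem (hSN hy))
    have hxN : x ∈ N := hSN hxS
    have hform : ∀ v ∈ Subgroup.zpowers s, (v ^ r * v⁻¹) ^ (r + 1) = 1 := by
      intro v hv
      rw [Commute.mul_pow ((Commute.refl v).pow_left r).inv_right, ← pow_mul, mul_add, mul_one,
        pow_add, F.pow_sq hv, inv_pow, ← pow_succ', mul_inv_cancel]
    rw [hc]
    by_cases hxE : x ∈ Subgroup.zpowers s
    · by_cases hgE : g ∈ Subgroup.zpowers s
      · rw [E_comm hgE (inv_mem hxE), mul_inv_cancel_right, mul_inv_cancel, one_pow]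
      · rw [F.conj_outside hgN hgE (inv_mem hxE)]
        have h := hform x⁻¹ (inv_mem hxE)
        rwa [inv_inv, E_comm (pow_mem (inv_mem hxE) r) hxE] at h
    · by_cases hgE : g ∈ Subgroup.zpowers s
      · rw [show x * (g * x⁻¹ * g⁻¹) = x * g * x⁻¹ * g⁻¹ by group, F.conj_outside hxN hxE hgE]
        exact hform g hgE
      · have h1 : x⁻¹ * g ∈ Subgroup.zpowers s :=
          (F.mul_mem_iff (inv_mem hxN) hgN).2 (iff_of_false (fun h => hxE (inv_mem_iff.1 h)) hgE)
        rw [show x * (g * x⁻¹ * g⁻¹) =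
          x * (x * (x⁻¹ * g) * x⁻¹) * (x⁻¹ * g)⁻¹ * x⁻¹ by group,
          F.conj_outside hxN hxE h1, mul_assoc x ((x⁻¹ * g) ^ r) _,
          conj_pow]
        rw [hform _ h1, mul_one, mul_inv_cancel]
  have hww := (hfoc ▸ hle) hwS
  exact F.pow_half_ne (hwz.symm.trans hww.2)

/-- `r - 1` and `e` have no common divisor apart from `1` and `2`. -/
theorem dvd_two (F : Flip p e u₀ s t r) {d : ℕ} (hd : d ∣ e) (hr : r ≡ 1 [MOD d]) : d ∣ 2 := by
  have he0 : e ≠ 0 := by have := F.he2; omega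
  have hd0 : d ≠ 0 := fun h => he0 (Nat.eq_zero_of_zero_dvd (h ▸ hd))
  by_contra hcon
  obtain ⟨k, hk⟩ : ∃ k, d = 2 ^ k := by
    refine ⟨d.primeFactorsList.length, Nat.eq_prime_pow_of_unique_prime_dvd hd0 fun {l} hl hld => ?_⟩
    by_contra hl2
    exact F.not_odd_prime hl hl2 (hld.trans hd) (hr.of_dvd hld)
  subst hk
  have h4 : 2 ^ 2 ∣ 2 ^ k := by
    refine pow_dvd_pow 2 ?_
    by_contra h
    exact hcon ((pow_dvd_pow 2 (by omega : k ≤ 1)).trans (by norm_num))
  exact F.not_four (h4.trans hd) (hr.of_dvd h4)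

/-- A root of unity fixed by `r` has square one. -/
theorem sq_eq_one (F : Flip p e u₀ s t r) {M : Type*} [Group M] {a : M}
    (ha : a ^ e = 1) (har : a ^ r = a) : a ^ 2 = 1 := by
  refine orderOf_dvd_iff_pow_eq_one.1 (F.dvd_two (orderOf_dvd_of_pow_eq_one ha) ?_)
  exact (pow_eq_pow_iff_modEq (x := a) (n := r) (m := 1)).1 (by rw [har, pow_one])

end Setting.Flip

end CfsgLib.PrimeTI
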