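import Cfsg.Agent.PrimeTI.Common
import Cfsg.Agent.Blocks.OrderP.WeightChar
import Cfsg.Agent.RealVector.Misc
import Cfsg.Agent.SmallPRep.Degree

/-!
# The case of a complement of odd order

The weights of the exceptional characters `X` and of the principal character are all `e`-th roots of
unity mod `p`, so every other rationally stable family has non-positive value sum at `u`.  With the
structure of the principal block this gives a character of degree at most `(p - 1) / 2`.
-/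

set_option autoImplicit false

noncomputable section

namespace CfsgLib.PrimeTI.Setting.Flip

open Cfsg CfsgLib Finset CfsgLib.Blocks.OrderP
open scoped ComplexConjugate

universe u

variable {G : Type u} [Group G] [Fintype G] {p e : ℕ} [hp : Fact p.Prime] {u₀ s t : G} {r : ℕ}
  {χ : IrrCharacter G}

local instance instFintypeOdd (s : G) : Fintype (Subgroup.zpowers s) := Fintype.ofFinite _

local instance instFintypeHomOdd (s : G) : Fintype (Subgroup.zpowers s →* ℂˣ) :=
  Fintype.ofFinite _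

theorem pow_r_eq_inv (F : Flip p e u₀ s t r) (he : Odd e) {x : G} (hx : x ∈ Subgroup.zpowers s) :
    x ^ r = x⁻¹ := by
  set a := x ^ (r + 1) with ha
  have hxe : x ^ e = 1 := by
    rw [← F.hs]
    exact orderOf_dvd_iff_pow_eq_one.1 (Nat.card_zpowers s ▸ Subgroup.orderOf_dvd_natCard _ hx)
  have hae : a ^ e = 1 := by rw [ha, ← pow_mul, mul_comm, pow_mul, hxe, one_pow]
  have har : a ^ r = a := by
    rw [ha, ← pow_mul, add_mul, one_mul, pow_add, F.pow_sq hx, ← pow_succ']
  have h2 := F.sq_eq_one hae har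
  obtain ⟨k, hk⟩ := he
  have : a = 1 := by rw [hk, pow_succ, pow_mul, h2, one_pow, one_mul] at hae; exact hae
  rw [ha, pow_succ] at this
  exact eq_inv_of_mul_eq_one_left this

theorem inv_mem_iff_moved (F : Flip p e u₀ s t r) (he : Odd e) {l : Subgroup.zpowers s →* ℂˣ} :
    l ∈ moved s r ↔ l ≠ 1 := by
  refine ⟨moved_ne_one, fun h => mem_moved.2 fun hfix => h (hom_ext_gen ?_)⟩
  have h2 := F.sq_of_fixed hfix
  have h1 := F.gen_pow_eq l
  obtain ⟨k, hk⟩ := he
  rw [hk, pow_succ, pow_mul, h2, one_pow, one_mul] at h1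
  exact h1

/-- The unique character of degree `p` takes integer values. -/
theorem chi_int (hχ : IsChi p χ) (g : G) : ∃ n : ℤ, (χ : G → ℂ) g = n := by
  classical
  obtain ⟨z, hz⟩ := exists_int_idem {χ} fun k hk φ hφ => by
    rw [Finset.mem_singleton] at hφ ⊢; rw [hφ, hχ.powIrr_eq hk]
  have h := hz g⁻¹
  rw [← Weight.famVal_eq, Weight.famVal, Finset.sum_singleton, inv_inv, hχ.map_one] at h
  have hint := Chars.isIntegral_apply (Chars.isCharacter_coe χ) g
  have hq : (χ : G → ℂ) g = algebraMap ℚ ℂ ((z g⁻¹ : ℚ) / p) := by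
    rw [map_div₀, map_intCast, map_natCast, eq_div_iff (Nat.cast_ne_zero.2 hp.out.ne_zero), h]
    ring
  rw [hq, isIntegral_algebraMap_iff (algebraMap ℚ ℂ).injective,
    IsIntegrallyClosed.isIntegral_iff] at hint
  obtain ⟨n, hn⟩ := hint
  exact ⟨n, by rw [hq, ← hn]; simp⟩

theorem chi_inv (hχ : IsChi p χ) (g : G) : (χ : G → ℂ) g⁻¹ = (χ : G → ℂ) g := by
  obtain ⟨n, hn⟩ := chi_int hχ g
  rw [Chars.map_inv_eq_conj (Chars.isCharacter_coe χ), hn, map_intCast]

theorem Phi_inv (F : Flip p e u₀ s t r) (he : Odd e) (l : Subgroup.zpowers s →* ℂˣ) (g : G) :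
    Phi l g⁻¹ = Phi l g := by
  by_cases h : ∃ x : G, x⁻¹ * g * x ∈ Subgroup.zpowers s
  · obtain ⟨x, hx⟩ := h
    have hg : g = x * (x⁻¹ * g * x) * x⁻¹ := by group
    have hg' : g⁻¹ = x * (x⁻¹ * g * x)⁻¹ * x⁻¹ := by group
    set y : Subgroup.zpowers s := ⟨x⁻¹ * g * x, hx⟩ with hy
    rw [hg', hg, Phi_classFun, Phi_classFun,
      show (x⁻¹ * (x * (x⁻¹ * g * x) * x⁻¹) * x)⁻¹ = ((y⁻¹ : Subgroup.zpowers s) : G) by
        rw [← hg]; rfl,
      show x⁻¹ * g * x = (y : G) from rfl, F.Phi_mem, F.Phi_mem]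
    have hr : ∀ w : Subgroup.zpowers s, (l ^ r) w = l w⁻¹ := fun w => by
      rw [MonoidHom.pow_apply, ← map_pow]
      exact congrArg l (Subtype.ext (by rw [SubgroupClass.coe_pow, F.pow_r_eq_inv he w.2]; rfl))
    rw [hr, hr, inv_inv]
    ring
  · push Not at h
    rw [Phi_eq_zero _ h, Phi_eq_zero _ fun x hx => h x ?_]
    simpa [mul_assoc] using inv_mem hx

/-- The values of `X` lie in the image of `ℤ_[p]`. -/
theorem X_values (F : Flip p e u₀ s t r) (hχ : IsChi p χ) {j : ℤ_[p] →+* ℂ}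
    (hj : Function.Injective j) (l : Subgroup.zpowers s →* ℂˣ) (g : G) :
    ∃ v : ℤ_[p], j v = 1 + (χ : G → ℂ) g - Phi l g := by
  by_cases h : ∃ x : G, x⁻¹ * g * x ∈ Subgroup.zpowers s
  · obtain ⟨x, hx⟩ := h
    have hg : g = x * (x⁻¹ * g * x) * x⁻¹ := by group
    obtain ⟨n, hn⟩ := chi_int hχ g
    set y : Subgroup.zpowers s := ⟨x⁻¹ * g * x, hx⟩ with hy
    have hye : y ^ e = 1 := Subtype.ext (by
      rw [SubgroupClass.coe_pow, ← F.hs]
      exact orderOf_dvd_iff_pow_eq_one.1 (Nat.card_zpowers s ▸ Subgroup.orderOf_dvd_natCard _ hx))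
    have hroot : ∀ m : Subgroup.zpowers s →* ℂˣ, ∃ v : ℤ_[p], j v = (m y : ℂ) := fun m =>
      Weight.exists_padic_root F.hediv j hj (by
        rw [← Units.val_pow_eq_pow_val, ← map_pow, hye, map_one, Units.val_one])
    obtain ⟨v1, h1⟩ := hroot l
    obtain ⟨v2, h2⟩ := hroot (l ^ r)
    refine ⟨(1 + n - 2 : ℤ) + v1 + v2, ?_⟩
    rw [map_add, map_add, map_intCast, h1, h2, hn,
      show Phi l g = Phi l (y : G) by
        conv_lhs => rw [hg, Phi_classFun], F.Phi_mem]
    push_cast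
    ring
  · push Not at h
    obtain ⟨n, hn⟩ := chi_int hχ g
    exact ⟨(1 + n : ℤ), by rw [map_intCast, Phi_eq_zero _ h, hn]; push_cast; ring⟩

theorem odd_not_dvd (F : Flip p e u₀ s t r) (he : Odd e) {ε : ℤ} (hε : ε = 1 ∨ ε = -1) (δ : ℤ)
    (hδ : δ = 1 ∨ δ = -1) : ¬ (p : ℤ) ∣ ε * (e : ℤ) - δ := by
  intro h
  have h5 := F.five_le
  have he2 := F.he2
  obtain ⟨k, hk⟩ := h
  obtain ⟨i, hi⟩ := he
  rcases lt_trichotomy k 0 with hk0 | hk0 | hk0
  · have h1 : (p : ℤ) * k ≤ p * (-1) := mul_le_mul_of_nonneg_left (by omega) (by omega)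
    rcases hε with rfl | rfl <;> rcases hδ with rfl | rfl <;> omega
  · subst hk0
    rcases hε with rfl | rfl <;> rcases hδ with rfl | rfl <;> omega
  · have h1 : (p : ℤ) * 1 ≤ p * k := mul_le_mul_of_nonneg_left (by omega) (by omega)
    rcases hε with rfl | rfl <;> rcases hδ with rfl | rfl <;> omega

/-- **The odd case.** -/
theorem odd_case (F : Flip p e u₀ s t r) (hχ : IsChi p χ) (he : Odd e) :
    ∃ (K : Type) (_ : Field K) (_ : Fintype K), Fintype.card K = p ∧
      Nonempty (G ≃* Matrix.ProjectiveSpecialLinearGroup (Fin 2) K) := by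
  classical
  have h5 := F.five_le
  have he2 := F.he2
  obtain ⟨j, hj⟩ := exists_padicInt_hom p
  obtain ⟨X, hX⟩ := F.exists_Xfun hχ
  set Xs := (moved s r).image X with hXs
  set one := Chars.oneChar G with hone
  have hmoved : moved s r = Finset.univ.erase (1 : Subgroup.zpowers s →* ℂˣ) := by
    ext l; simp [F.inv_mem_iff_moved he]
  have hK : 2 * Xs.card + 1 = e := by
    rw [hXs, F.two_mul_card_image hX, hmoved, Finset.card_erase_of_mem (Finset.mem_univ _),
      Finset.card_univ, F.card_hom]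
    omega
  have hXdeg : ∀ Y ∈ Xs, (Y : G → ℂ) 1 = (p : ℂ) + 1 := by
    intro Y hY
    obtain ⟨l, hl, rfl⟩ := Finset.mem_image.1 hY
    rw [← Chars.coe_charDegree, (hX l hl).2, Nat.cast_add, Nat.cast_one]
  have hXu : ∀ Y ∈ Xs, ∀ g : G, p ∣ orderOf g → (Y : G → ℂ) g = 1 := by
    intro Y hY g hg
    obtain ⟨l, hl, rfl⟩ := Finset.mem_image.1 hY
    exact F.X_apply_upow hχ hX hl hg
  have honeX : one ∉ Xs := by
    intro h
    have h1 := hXdeg _ h
    rw [hone, Chars.oneChar_apply] at h1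
    exact Nat.cast_ne_zero.2 hp.out.ne_zero (by linear_combination -h1 : (p : ℂ) = 0)
  have hord : ∀ i ∈ Finset.Ico 1 p, p ∣ orderOf (u₀ ^ i) := by
    intro i hi
    obtain ⟨hi1, hip⟩ := Finset.mem_Ico.1 hi
    rw [orderOf_pow' _ (by omega), F.hu, (Nat.coprime_of_lt_prime (by omega) hip hp.out).gcd_eq_one,
      Nat.div_one]
  -- weights
  set D := F.toSetting.toLocal
  have hXreal : ∀ Y ∈ Xs, ∃ z : G → ℤ_[p], Weight.Realises j {Y} z ∧ (∀ g, z g⁻¹ = z g) ∧
      ∃ w, Weight.Carries z u₀ s w := by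
    intro Y hY
    obtain ⟨l, hl, rfl⟩ := Finset.mem_image.1 hY
    choose v hv using F.X_values hχ hj l
    have hR : Weight.Realises j {X l} fun g => ((p + 1 : ℕ) : ℤ_[p]) * v g⁻¹ := fun g => by
      rw [map_mul, map_natCast, hv, Weight.famVal, Finset.sum_singleton, hXdeg _ hY, (hX l hl).1]
      push_cast
      ring
    refine ⟨_, hR, hR.sym hj fun g => ?_, hR.exists_carries D hj (τ := (p : ℤ) + 1) (by omega)
      fun i hi => ?_⟩
    · simp only [Weight.famVal, Finset.sum_singleton, (hX l hl).1, chi_inv hχ, F.Phi_inv he,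
        inv_inv]
    · rw [Finset.sum_singleton, hXdeg _ hY, hXu _ hY _ (hord i hi)]
      push_cast
      ring
  choose! zX hzX hzXsym wX hwX using hXreal
  have hone_real : Weight.Realises j {one} (fun _ => (1 : ℤ_[p])) := fun g => by
    simp [Weight.famVal, hone]
  obtain ⟨w₁, hw₁⟩ := hone_real.exists_carries D hj (τ := 1) one_pos fun i _ => by
    simp [hone]
  have hw₁1 : w₁ = 1 := hw₁.eq_one
  have hwe : ∀ Y ∈ Xs, wX Y ^ e = 1 := fun Y hY => (hwX Y hY).pow_eq_one D
  have hwne1 : ∀ Y ∈ Xs, wX Y ≠ 1 := by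
    intro Y hY h
    refine (hwX Y hY).ne D hw₁ (fun x => Weight.Realises.orth hj (hzX Y hY) hone_real ?_ x)
      (h.trans hw₁1.symm)
    exact Finset.disjoint_singleton.2 fun h' => honeX (h' ▸ hY)
  set W := Xs.image wX ∪ Xs.image (fun Y => (wX Y)⁻¹) with hW
  have hinj : ∀ Y ∈ Xs, ∀ Y' ∈ Xs, wX Y = wX Y' → Y = Y' := by
    intro Y hY Y' hY' h
    by_contra hne
    exact (hwX Y hY).ne D (hwX Y' hY')
      (fun x => Weight.Realises.orth hj (hzX Y hY) (hzX Y' hY') (Finset.disjoint_singleton.2 hne) x) h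
  have hWcard : W.card = e - 1 := by
    rw [hW, Finset.card_union_of_disjoint, Finset.card_image_of_injOn fun Y hY Y' hY' h =>
        hinj Y hY Y' hY' h, Finset.card_image_of_injOn fun Y hY Y' hY' h =>
        hinj Y hY Y' hY' (inv_injective h)]
    · omega
    · rw [Finset.disjoint_left]
      intro a ha ha'
      obtain ⟨Y, hY, rfl⟩ := Finset.mem_image.1 ha
      obtain ⟨Y', hY', hYY⟩ := Finset.mem_image.1 ha'
      have hne0 : wX Y' ≠ 0 := fun h => by
        have := hwe Y' hY'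
        rw [h, zero_pow (by omega)] at this
        exact zero_ne_one this
      have hprod : wX Y * wX Y' = 1 := by rw [← hYY, inv_mul_cancel₀ hne0]
      by_cases h : Y = Y'
      · subst h
        obtain ⟨i, hi⟩ := he
        have h1 := hwe Y hY
        rw [hi, pow_succ, pow_mul, pow_two, hprod, one_pow, one_mul] at h1
        exact hwne1 Y hY h1
      · exact (hwX Y hY).mul_ne_one D (hzXsym Y hY) (hwX Y' hY')
          (fun x => Weight.Realises.orth hj (hzX Y hY) (hzX Y' hY') (Finset.disjoint_singleton.2 h) x)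
          hprod
  have hWeq : W = (rootSet p e).erase 1 := by
    refine Finset.eq_of_subset_of_card_le (fun a ha => ?_) ?_
    · rw [Finset.mem_erase, mem_rootSet]
      rcases Finset.mem_union.1 ha with h | h
      · obtain ⟨Y, hY, rfl⟩ := Finset.mem_image.1 h
        exact ⟨hwne1 Y hY, hwe Y hY⟩
      · obtain ⟨Y, hY, rfl⟩ := Finset.mem_image.1 h
        exact ⟨fun h => hwne1 Y hY (inv_eq_one.1 h), by rw [inv_pow, hwe Y hY, inv_one]⟩
    · rw [hWcard, Finset.card_erase_of_mem (mem_rootSet.2 (one_pow e)), card_rootSet F.hediv]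
  have hnonpos : ∀ S : Finset (IrrCharacter G),
      (∀ (k : ℕ) (hk : k.Coprime (Nat.card G)), ∀ φ ∈ S, Blocks.Orth.powIrr hk φ ∈ S) →
      one ∉ S → Disjoint Xs S → ∀ τ : ℤ,
      (∀ i ∈ Finset.Ico 1 p, ∑ η ∈ S, (η : G → ℂ) 1 * (η : G → ℂ) (u₀ ^ i) = τ) → τ ≤ 0 := by
    intro S hS h1S hXS τ hval
    by_contra hτ
    obtain ⟨z, hz, hzsym⟩ := Weight.exists_realises j hj S hS
    obtain ⟨w, hw⟩ := hz.exists_carries D hj (by omega : 0 < τ) hval
    have hw1 : w ≠ 1 := fun h => hw.ne D hw₁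
      (fun x => Weight.Realises.orth hj hz hone_real (Finset.disjoint_singleton_right.2 h1S) x)
      (h.trans hw₁1.symm)
    have hmem : w ∈ W := by
      rw [hWeq, Finset.mem_erase, mem_rootSet]
      exact ⟨hw1, hw.pow_eq_one D⟩
    have horth : ∀ Y ∈ Xs, ∀ x, ∑ g, z g * zX Y (g⁻¹ * x) = 0 := fun Y hY x =>
      Weight.Realises.orth hj hz (hzX Y hY)
        (Finset.disjoint_singleton_right.2 fun h => Finset.disjoint_left.1 hXS hY h) x
    rcases Finset.mem_union.1 hmem with h | h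
    · obtain ⟨Y, hY, h'⟩ := Finset.mem_image.1 h
      exact hw.ne D (hwX Y hY) (horth Y hY) h'.symm
    · obtain ⟨Y, hY, h'⟩ := Finset.mem_image.1 h
      refine hw.mul_ne_one D hzsym (hwX Y hY) (horth Y hY) ?_
      rw [← h', inv_mul_cancel₀]
      intro h0
      have := hwe Y hY
      rw [h0, zero_pow (by omega)] at this
      exact zero_ne_one this
  -- the principal block
  obtain ⟨M, hM⟩ := RealVector.exists_modular p
  obtain ⟨NB, YB, hdisj, hblock, hNBcard, hYBcard, εX, ε, hε, hNBprop, hYBc, hrel⟩ :=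
    principal_block_structure hM F.hu F.hidx F.relIndex_centralizer
  have : M.IsMaximal := hM.2.1
  obtain ⟨-, -, hfus, -⟩ := exists_local_data F.hu F.hidx F.relIndex_centralizer
  set B := (principalBlock M G).toFinite.toFinset with hB
  have hBeq : B = NB ∪ YB := by ext φ; simp [hB, hblock]
  have hupow : ∀ i ∈ Finset.Ico 1 p, u₀ ^ i = upow u₀ (i : ZMod p) ∧ (i : ZMod p) ≠ 0 := by
    intro i hi
    refine ⟨(upow_natCast F.hu i).symm, fun h => ?_⟩
    obtain ⟨hi1, hip⟩ := Finset.mem_Ico.1 hi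
    have := Nat.le_of_dvd (by omega) ((ZMod.natCast_eq_zero_iff _ _).1 h)
    omega
  have houtside : ∀ φ, φ ∉ B → ∀ i ∈ Finset.Ico 1 p, (φ : G → ℂ) (u₀ ^ i) = 0 := by
    intro φ hφ i hi
    obtain ⟨heq, hne⟩ := hupow i hi
    rw [heq]
    have h1 := sum_block_columns hM F.hu F.hidx hfus (i : ZMod p) (i : ZMod p) hne hne
    rw [if_pos (by rw [div_self hne]; exact mem_rootSet.2 (one_pow e))] at h1
    simp only [← conj_apply_upow F.hu, Complex.mul_conj, Complex.normSq_eq_norm_sq] at h1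
    have h2 := Chars.sum_irr_norm_sq (upow u₀ (i : ZMod p))
    rw [← Blocks.HeightZero.centralizer_zpowers_eq, zpowers_upow F.hu hne,
      Blocks.HeightZero.centralizer_zpowers_eq, F.hC, Nat.card_zpowers, F.hu] at h2
    have h1' : ∑ x ∈ B, ‖(x : G → ℂ) (upow u₀ (i : ZMod p))‖ ^ 2 = (p : ℝ) := by exact_mod_cast h1
    rw [← Finset.sum_add_sum_compl B, h1'] at h2
    have h3 : ∑ x ∈ Bᶜ, ‖(x : G → ℂ) (upow u₀ (i : ZMod p))‖ ^ 2 = 0 := by linarith
    have h4 := (Finset.sum_eq_zero_iff_of_nonneg fun _ _ => sq_nonneg _).1 h3 φ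
      (Finset.mem_compl.2 hφ)
    simpa using h4
  have hNBdeg : ∀ φ ∈ NB, ∀ δ : ℤ, (δ = 1 ∨ δ = -1) →
      (charDegree (φ : G → ℂ) : ℤ) ≡ δ [ZMOD p] → φ ∉ YB := fun φ hφ _ _ _ h =>
    Finset.disjoint_left.1 hdisj hφ h
  have hnotY : ∀ φ ∈ YB, ∀ δ : ℤ, (δ = 1 ∨ δ = -1) →
      ¬ (charDegree (φ : G → ℂ) : ℤ) ≡ δ [ZMOD p] := by
    intro φ hφ δ hδ h
    exact F.odd_not_dvd he hε δ hδ ((hYBc φ hφ).symm.trans h).symm.dvd
  have hval : ∀ φ ∈ NB, ∀ i ∈ Finset.Ico 1 p, (φ : G → ℂ) (u₀ ^ i) = εX φ := by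
    intro φ hφ i hi
    have h := (hNBprop φ hφ).2.2 (u₀ ^ i) (pow_mem (Subgroup.mem_zpowers u₀) i)
      (fun h => by have := hord i hi; rw [h, orderOf_one, Nat.dvd_one] at this; exact hp.out.ne_one this)
      1 (Commute.one_left _) not_dvd_orderOf_one
    simpa using h
  have honeNB : one ∈ NB := by
    rcases (hblock one).1 Blocks.oneChar_mem_principalBlock with h | h
    · exact h
    · refine absurd ?_ (hnotY one h 1 (Or.inl rfl))
      rw [Chars.charDegree_eq_of_map_one (n := 1) (by simp [hone])]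
      rfl
  have h1Ico : 1 ∈ Finset.Ico 1 p := Finset.mem_Ico.2 ⟨le_rfl, hp.out.one_lt⟩
  have hεone : εX one = 1 := by
    have h := hval one honeNB 1 h1Ico
    rw [hone, Chars.oneChar_apply] at h
    exact_mod_cast h.symm
  have hXsNB : ∀ Y ∈ Xs, Y ∈ NB ∧ εX Y = 1 := by
    intro Y hY
    have hmem : Y ∈ B := by
      by_contra h
      have h1 := houtside Y h 1 h1Ico
      rw [hXu Y hY _ (hord 1 h1Ico)] at h1
      exact one_ne_zero h1
    rw [hBeq, Finset.mem_union] at hmem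
    have hNB : Y ∈ NB := hmem.resolve_right fun h => hnotY Y h 1 (Or.inl rfl) (by
      have hd : charDegree (Y : G → ℂ) = p + 1 :=
        Chars.charDegree_eq_of_map_one (by rw [hXdeg Y hY]; push_cast; rfl)
      rw [hd, Int.modEq_iff_dvd]
      exact ⟨-1, by push_cast; ring⟩)
    refine ⟨hNB, ?_⟩
    have h := hval Y hNB 1 h1Ico
    rw [hXu Y hY _ (hord 1 h1Ico)] at h
    exact_mod_cast h.symm
  have hpowval : ∀ (k : ℕ) (hk : k.Coprime (Nat.card G)), ∀ φ : IrrCharacter G,
      (Blocks.Orth.powIrr hk φ : G → ℂ) u₀ = (φ : G → ℂ) (u₀ ^ (k % p)) ∧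
        k % p ∈ Finset.Ico 1 p := by
    intro k hk φ
    refine ⟨?_, Finset.mem_Ico.2 ⟨Nat.pos_of_ne_zero fun h => ?_, Nat.mod_lt _ hp.out.pos⟩⟩
    · rw [Blocks.Orth.powIrr_apply]
      congr 1
      rw [← F.hu, pow_mod_orderOf]
    · refine hp.out.ne_one (Nat.dvd_one.1 (hk ▸ Nat.dvd_gcd (Nat.dvd_of_mod_eq_zero h) ?_))
      rw [← F.hu]
      exact orderOf_dvd_natCard u₀
  have hdegpow : ∀ (k : ℕ) (hk : k.Coprime (Nat.card G)), ∀ φ : IrrCharacter G,
      charDegree (Blocks.Orth.powIrr hk φ : G → ℂ) = charDegree (φ : G → ℂ) := fun k hk φ =>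
    Chars.charDegree_eq_of_map_one (by rw [Blocks.Orth.powIrr_apply, one_pow, Chars.coe_charDegree])
  have hNBstable : ∀ (k : ℕ) (hk : k.Coprime (Nat.card G)), ∀ φ ∈ NB,
      Blocks.Orth.powIrr hk φ ∈ NB ∧ εX (Blocks.Orth.powIrr hk φ) = εX φ := by
    intro k hk φ hφ
    have hmem := Blocks.Orth.powIrr_mem_principalBlock hk ((hblock φ).2 (Or.inl hφ))
    have hin : Blocks.Orth.powIrr hk φ ∈ NB := ((hblock _).1 hmem).resolve_right fun h =>
      hnotY _ h (εX φ) (hNBprop φ hφ).1 (by rw [hdegpow]; exact (hNBprop φ hφ).2.1)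
    refine ⟨hin, ?_⟩
    obtain ⟨h1, h2⟩ := hpowval k hk φ
    have h := hval _ hin 1 h1Ico
    rw [pow_one, h1, hval φ hφ _ h2] at h
    exact_mod_cast h.symm
  have hXstable : ∀ (k : ℕ) (hk : k.Coprime (Nat.card G)), ∀ Y ∈ Xs,
      Blocks.Orth.powIrr hk Y ∈ Xs := by
    intro k hk Y hY
    obtain ⟨l, hl, rfl⟩ := Finset.mem_image.1 hY
    have hlk : l ^ k ∈ moved s r := by
      rw [F.inv_mem_iff_moved he]
      intro h
      have hl1 := (F.inv_mem_iff_moved he).1 hl
      refine hl1 (hom_ext_gen ?_)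
      have h1 : l ⟨s, Subgroup.mem_zpowers s⟩ ^ k = 1 := by
        rw [← MonoidHom.pow_apply, h, MonoidHom.one_apply]
      have h2 := F.gen_pow_eq l
      have hco : Nat.gcd k e = 1 :=
        Nat.Coprime.coprime_dvd_right (F.hs ▸ orderOf_dvd_natCard s) hk
      have h3 := pow_gcd_eq_one.2 ⟨h1, h2⟩
      rw [hco, pow_one] at h3
      exact h3
    refine Finset.mem_image.2 ⟨l ^ k, hlk, Subtype.ext (funext fun g => ?_)⟩
    rw [Blocks.Orth.powIrr_apply, (hX l hl).1, (hX _ hlk).1, Phi_pow hk]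
    congr 2
    exact (congrFun (congrArg Subtype.val (hχ.powIrr_eq hk)) g).symm
  -- the positive part
  set Sp := NB.filter fun φ => εX φ = 1 ∧ φ ≠ one ∧ φ ∉ Xs with hSp
  have hSp0 : Sp = ∅ := by
    by_contra hne
    have h := hnonpos Sp (fun k hk φ hφ => ?_) (fun h => (Finset.mem_filter.1 h).2.2.1 rfl)
      (Finset.disjoint_right.2 fun φ hφ => (Finset.mem_filter.1 hφ).2.2.2)
      (∑ φ ∈ Sp, (charDegree (φ : G → ℂ) : ℤ)) fun i hi => ?_
    · have hpos : 0 < ∑ φ ∈ Sp, (charDegree (φ : G → ℂ) : ℤ) :=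
        Finset.sum_pos (fun φ _ => by exact_mod_cast Chars.charDegree_pos φ)
          (Finset.nonempty_iff_ne_empty.2 hne)
      omega
    · obtain ⟨hφN, h1, h2, h3⟩ := Finset.mem_filter.1 hφ
      obtain ⟨hin, hεk⟩ := hNBstable k hk φ hφN
      refine Finset.mem_filter.2 ⟨hin, hεk.trans h1, fun h => h2 ?_, fun h => h3 ?_⟩
      · exact Blocks.Orth.powIrr_injective hk (h.trans (Subtype.ext (funext fun g => by simp [hone])).symm)
      · have himg : Xs.image (Blocks.Orth.powIrr hk) = Xs := Finset.eq_of_subset_of_card_le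
          (Finset.image_subset_iff.2 (hXstable k hk))
          (by rw [Finset.card_image_of_injective _ (Blocks.Orth.powIrr_injective hk)])
        rw [← himg] at h
        obtain ⟨Y, hY, hYφ⟩ := Finset.mem_image.1 h
        exact Blocks.Orth.powIrr_injective hk hYφ ▸ hY
    · push_cast
      refine Finset.sum_congr rfl fun φ hφ => ?_
      rw [hval φ (Finset.mem_filter.1 hφ).1 i hi, (Finset.mem_filter.1 hφ).2.1, Int.cast_one, mul_one,
        Chars.coe_charDegree]
  set R := NB \ insert one Xs with hR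
  have hsubNB : insert one Xs ⊆ NB := Finset.insert_subset honeNB fun Y hY => (hXsNB Y hY).1
  have hRcard : R.card = Xs.card := by
    rw [hR, Finset.card_sdiff_of_subset hsubNB, Finset.card_insert_of_notMem honeX, hNBcard]
    omega
  have hRneg : ∀ φ ∈ R, εX φ = -1 ∧ (p : ℤ) - 1 ≤ charDegree (φ : G → ℂ) := by
    intro φ hφ
    obtain ⟨hφN, hφn⟩ := Finset.mem_sdiff.1 hφ
    simp only [Finset.mem_insert, not_or] at hφn
    have hneg : εX φ = -1 := (hNBprop φ hφN).1.resolve_left fun h => by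
      have : φ ∈ Sp := Finset.mem_filter.2 ⟨hφN, h, hφn⟩
      rw [hSp0] at this
      exact absurd this (Finset.notMem_empty _)
    refine ⟨hneg, ?_⟩
    obtain ⟨q, hq⟩ := Int.modEq_iff_dvd.1 (hNBprop φ hφN).2.1
    rw [hneg] at hq
    have hpos : (1 : ℤ) ≤ charDegree (φ : G → ℂ) := by exact_mod_cast Chars.charDegree_pos φ
    have hq0 : q ≤ -1 := by
      by_contra h
      have : 0 ≤ (p : ℤ) * q := mul_nonneg (by omega) (by omega)
      omega
    have : (p : ℤ) * q ≤ p * (-1) := mul_le_mul_of_nonneg_left hq0 (by omega)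
    omega
  -- the exceptional characters
  set R0 : ℤ := ∑ φ ∈ NB, εX φ * (charDegree (φ : G → ℂ) : ℤ) with hR0
  have hθdeg : ∀ θ ∈ YB, ε * (charDegree (θ : G → ℂ) : ℤ) = R0 := by
    intro θ hθ
    refine Int.cast_injective (α := ℂ) ?_
    rw [hR0]
    push_cast
    simp only [Chars.coe_charDegree]
    exact hrel θ hθ 1 not_dvd_orderOf_one
  have hYval : ∀ i ∈ Finset.Ico 1 p,
      ∑ θ ∈ YB, (θ : G → ℂ) 1 * (θ : G → ℂ) (u₀ ^ i) = ((-R0 : ℤ) : ℂ) := by
    intro i hi
    have h := Chars.sum_irr_map_one_mul (u₀ ^ i)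
    rw [if_neg (fun h0 => by
      have := hord i hi
      rw [h0, orderOf_one, Nat.dvd_one] at this
      exact hp.out.ne_one this), ← Finset.sum_subset (Finset.subset_univ B) (fun φ _ hφ => by
        rw [houtside φ hφ i hi, mul_zero]), hBeq, Finset.sum_union hdisj] at h
    have hNBsum : ∑ φ ∈ NB, (φ : G → ℂ) 1 * (φ : G → ℂ) (u₀ ^ i) = (R0 : ℂ) := by
      rw [hR0]
      push_cast
      exact Finset.sum_congr rfl fun φ hφ => by rw [hval φ hφ i hi, Chars.coe_charDegree, mul_comm]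
    rw [hNBsum] at h
    push_cast
    linear_combination h
  have hYstable : ∀ (k : ℕ) (hk : k.Coprime (Nat.card G)), ∀ φ ∈ YB,
      Blocks.Orth.powIrr hk φ ∈ YB := by
    intro k hk φ hφ
    have hmem := Blocks.Orth.powIrr_mem_principalBlock hk ((hblock φ).2 (Or.inr hφ))
    refine ((hblock _).1 hmem).resolve_left fun h => hnotY φ hφ _ (hNBprop _ h).1 ?_
    have := (hNBprop _ h).2.1
    rwa [hdegpow] at this
  have hR0pos : 0 ≤ R0 := by
    have := hnonpos YB hYstable (fun h => Finset.disjoint_left.1 hdisj honeNB h)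
      (Finset.disjoint_left.2 fun Y hY h => Finset.disjoint_left.1 hdisj (hXsNB Y hY).1 h) (-R0) hYval
    omega
  obtain ⟨θ, hθ⟩ : YB.Nonempty := Finset.card_pos.1 (by
    rw [hYBcard]
    exact Nat.div_pos (Nat.le_of_dvd (by omega) F.hediv) (by omega))
  have hd1 : (1 : ℤ) ≤ charDegree (θ : G → ℂ) := by exact_mod_cast Chars.charDegree_pos θ
  have hε1 : ε = 1 := hε.resolve_right fun h => by
    have := hθdeg θ hθ
    rw [h] at this
    omega
  have hd : (charDegree (θ : G → ℂ) : ℤ) ≤ e := by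
    have h := hθdeg θ hθ
    rw [hε1, one_mul] at h
    rw [h, hR0, ← Finset.sum_sdiff hsubNB, ← hR, Finset.sum_insert honeX]
    have h1 : ∑ φ ∈ R, εX φ * (charDegree (φ : G → ℂ) : ℤ) ≤ R.card • (-((p : ℤ) - 1)) :=
      Finset.sum_le_card_nsmul _ _ _ fun φ hφ => by
        obtain ⟨a, b⟩ := hRneg φ hφ
        rw [a]; omega
    have h2 : ∑ Y ∈ Xs, εX Y * (charDegree (Y : G → ℂ) : ℤ) = Xs.card * ((p : ℤ) + 1) := by
      rw [Finset.sum_congr rfl (g := fun _ => ((p : ℤ) + 1)) fun Y hY => by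
        rw [(hXsNB Y hY).2, one_mul,
          Chars.charDegree_eq_of_map_one (n := p + 1) (by rw [hXdeg Y hY]; push_cast; rfl)]
        push_cast; rfl, Finset.sum_const, nsmul_eq_mul]
    rw [h2, hεone, Chars.charDegree_eq_of_map_one (n := 1) (by simp [hone]), one_mul, Nat.cast_one]
    rw [nsmul_eq_mul, hRcard] at h1
    have hKe : (2 * (Xs.card : ℤ) + 1) = e := by exact_mod_cast hK
    linarith
  -- the small representation
  obtain ⟨n, ρ, -, hρ⟩ := θ.2
  have hnd : n = charDegree (θ : G → ℂ) := by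
    have h := congrFun hρ 1
    rw [Representation.char_one, Module.finrank_fin_fun, ← Chars.coe_charDegree] at h
    exact_mod_cast h
  haveI := F.simple
  have hker : Chars.charKer (θ : G → ℂ) = ⊥ := by
    refine ((Chars.instNormalCharKer θ).eq_bot_or_eq_top).resolve_right fun htop => ?_
    have hall : ∀ g, (θ : G → ℂ) g = (θ : G → ℂ) 1 := fun g =>
      Chars.map_eq_map_one_of_mem_charKer (htop ▸ Subgroup.mem_top g)
    have hne : θ ≠ one := fun h => Finset.disjoint_left.1 hdisj honeNB (h ▸ hθ)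
    have h := Chars.classInner_of_ne hne
    simp only [classInner, hall, hone, Chars.oneChar_apply, map_one, mul_one, Finset.sum_const,
      Finset.card_univ, nsmul_eq_mul] at h
    rw [← mul_assoc, ← Nat.card_eq_fintype_card,
      inv_mul_cancel₀ (Nat.cast_ne_zero.2 Nat.card_pos.ne'), one_mul] at h
    exact Chars.map_one_ne_zero θ h
  have hρinj : Function.Injective ρ := by
    intro a b hab
    have h1 : ρ (a⁻¹ * b) = 1 := by rw [map_mul ρ, ← hab, ← map_mul ρ, inv_mul_cancel, map_one ρ]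
    have h2 := (Chars.mem_charKer_iff_rep ρ (a⁻¹ * b)).2 h1
    rw [hρ, hker, Subgroup.mem_bot] at h2
    exact inv_mul_eq_one.1 h2
  obtain ⟨k, hk1, -, hcard⟩ := F.exists_count
  have hsq : ¬ p ^ 2 ∣ Nat.card G := by
    rw [← Subgroup.card_mul_index (Subgroup.zpowers u₀), Nat.card_zpowers, F.hu, pow_two]
    exact fun h => F.hidx ((Nat.mul_dvd_mul_iff_left hp.out.pos).1 h)
  have hnn : ∀ H : Subgroup G, H.Normal → Nat.card H ≠ p := by
    intro H hH h
    rcases hH.eq_bot_or_eq_top with h' | h'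
    · rw [h', Subgroup.card_bot] at h
      exact hp.out.ne_one h.symm
    · rw [h', Subgroup.card_top, hcard] at h
      have h2 : e * (1 + k * p) = 1 := Nat.eq_of_mul_eq_mul_left hp.out.pos
        (by rw [← mul_assoc, h, mul_one])
      have := Nat.eq_one_of_mul_eq_one_right h2
      omega
  obtain ⟨-, ⟨iso⟩⟩ := SmallPRep.small_degree hsq (hcard ▸ (Dvd.intro _ (mul_assoc _ _ _).symm))
    hnn ρ hρinj (by omega)
  have hcen : Subgroup.center G = ⊥ := by
    refine (inferInstance : (Subgroup.center G).Normal).eq_bot_or_eq_top.resolve_right fun h => ?_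
    have hbot : commutator G = ⊥ := by
      rw [commutator_def, Subgroup.commutator_eq_bot_iff_le_centralizer]
      intro a _ b _
      exact ((Subgroup.mem_center_iff.1 (h ▸ Subgroup.mem_top a : a ∈ Subgroup.center G)) b)
    rw [F.perfect] at hbot
    have h1 : u₀ = 1 := Subgroup.mem_bot.1 (hbot ▸ Subgroup.mem_top u₀)
    have := F.hu
    rw [h1, orderOf_one] at this
    exact hp.out.ne_one this.symm
  exact ⟨ZMod p, inferInstance, inferInstance, ZMod.card p,
    ⟨((QuotientGroup.quotientBot (G := G)).symm.trans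
      (QuotientGroup.quotientMulEquivOfEq hcen.symm)).trans iso⟩⟩

end CfsgLib.PrimeTI.Setting.Flip
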